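import Cfsg.Agent.Lib.J2Leech.Base
import Cfsg.Agent.Lib.J2Ico.Quot

/-!
# The reflection group and the element of order five inside `Co0`
-/

set_option autoImplicit false
set_option maxRecDepth 100000
set_option linter.unusedSectionVars false

noncomputable section

namespace Cfsg.Agent.Lib.J2Leech

open Cfsg Cfsg.Spor Quaternion Cfsg.Agent.Lib.J2Ico Cfsg.Agent.Lib.J2Ico.Q8
open Cfsg.Agent.Lib.Golay.Core Cfsg.Agent.Lib.Leech.Lat Cfsg.Agent.Lib.Leech.ZBasis Cfsg.Agent.Lib.Leech.Vec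

/-- Conjugation by the isometry. -/
def cj : Equiv.Perm Lam ≃* Equiv.Perm L := psiE.permCongrHom

theorem cj_psiL (g : Equiv.Perm Lam) (x : Lam) : cj g (psiL x) = psiL (g x) := by
  show psiE (g (psiE.symm (psiE x))) = psiE (g x)
  rw [Equiv.symm_apply_apply]

theorem cj_mem {g : Equiv.Perm Lam} (hadd : ∀ x y, g (addL x y) = addL (g x) (g y))
    (hE : ∀ x, E4 (cdv (g x)) (cdv (g x)) = E4 (cdv x) (cdv x)) : cj g ∈ Co0 := by
  refine ⟨fun v w => ?_, fun v => ?_⟩
  · obtain ⟨x, rfl⟩ := psiL_surjective v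
    obtain ⟨y, rfl⟩ := psiL_surjective w
    rw [← psiL_add, cj_psiL, hadd, psiL_add, cj_psiL, cj_psiL]
  · obtain ⟨x, rfl⟩ := psiL_surjective v
    rw [cj_psiL, sqNorm_psiL, sqNorm_psiL, hE]

theorem E4_linG {g : Equiv.Perm Lam} (hg : g ∈ linG) (x y : Lam) :
    E4 (cdv (g x)) (cdv (g y)) = E4 (cdv x) (cdv y) := by
  apply E4_congr (cdv_spec _).1 (cdv_spec _).1 (cdv_spec _).1 (cdv_spec _).1
  rw [← (cdv_spec _).2, ← (cdv_spec _).2, ← (cdv_spec _).2, ← (cdv_spec _).2]
  exact linG_qip hg x y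

/-- The reflection group inside `Co0`. -/
def iota : twoJ2 →* Co0 :=
  ((cj.toMonoidHom).comp twoJ2.subtype).codRestrict Co0
    (fun t => cj_mem (linG_add (twoJ2_le_linG t.2)) (fun x => E4_linG (twoJ2_le_linG t.2) x x))

theorem iota_psiL (t : twoJ2) (x : Lam) : iota t • psiL x = psiL (t.1 x) := cj_psiL _ _

theorem iota_injective : Function.Injective iota := by
  intro s t h
  have h1 : cj s.1 = cj t.1 := congrArg Subtype.val h
  exact Subtype.ext (cj.injective h1)

/-! ### Left multiplication by the unit -/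

theorem uQ_inI : inI uQ := by decide

theorem cU_mem : E uQ ∈ icosians := E_mem uQ_inI

theorem uQ_unit : mulI (conj uQ) uQ = one := by decide

theorem star_cU_mul : star (E uQ) * E uQ = 1 := by
  rw [E_conj, E_mulI (inI_conj uQ_inI) uQ_inI, uQ_unit, E_one]

theorem cU_mul_star : E uQ * star (E uQ) = 1 := by
  rw [Quaternion.self_mul_star, ← Quaternion.star_mul_self, star_cU_mul]

/-- Left multiplication by the unit. -/
def lU : Equiv.Perm Lam where
  toFun x := smulL (E uQ) cU_mem x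
  invFun x := smulL (star (E uQ)) (star_mem cU_mem) x
  left_inv x := Subtype.ext (funext fun t => by
    show star (E uQ) * (E uQ * x.1 t) = x.1 t
    rw [← mul_assoc, star_cU_mul, one_mul])
  right_inv x := Subtype.ext (funext fun t => by
    show E uQ * (star (E uQ) * x.1 t) = x.1 t
    rw [← mul_assoc, cU_mul_star, one_mul])

theorem lU_val (x : Lam) (t : Fin 3) : (lU x).1 t = E uQ * x.1 t := rfl

/-- Left multiple of a triple. -/
def m3 (u : Q8) (v : V3) : V3 := (mulI u v.1, mulI u v.2.1, mulI u v.2.2)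

theorem allI_m3 {u : Q8} {v : V3} (hu : inI u) (hv : allI v) : allI (m3 u v) :=
  ⟨inI_mulI hu hv.1, inI_mulI hu hv.2.1, inI_mulI hu hv.2.2⟩

theorem evv_m3 {u : Q8} {v : V3} (hu : inI u) (hv : allI v) (t : Fin 3) :
    evv (m3 u v) t = E u * evv v t := by
  fin_cases t
  · exact (E_mulI hu hv.1).symm
  · exact (E_mulI hu hv.2.1).symm
  · exact (E_mulI hu hv.2.2).symm

theorem cdv_lU (x : Lam) : cdv (lU x) = m3 uQ (cdv x) := by
  apply evv_injective
  rw [← (cdv_spec _).2]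
  funext t
  rw [lU_val, evv_m3 uQ_inI (cdv_spec x).1, ← (cdv_spec x).2]

theorem tp_mulI_mulI {q q' : Q8} (hq : inI q) (hq' : inI q') : tp (mulI uQ q) (mulI uQ q') = tp q q' := by
  have h : mul uQ q = smul 2 (mulI uQ q) := (mul_of_inI uQ_inI hq).2
  have h' : mul uQ q' = smul 2 (mulI uQ q') := (mul_of_inI uQ_inI hq').2
  have key : tp (mul uQ q) (mul uQ q') = 4 * tp q q' := by
    simp only [tp, mul, uQ, mR, mT]
    ring
  rw [h, h', tp_smul_left, tp_smul_right] at key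
  linarith

theorem E4_m3_m3 {v w : V3} (hv : allI v) (hw : allI w) : E4 (m3 uQ v) (m3 uQ w) = E4 v w := by
  simp only [E4, m3]
  rw [tp_mulI_mulI hv.1 hw.1, tp_mulI_mulI hv.2.1 hw.2.1, tp_mulI_mulI hv.2.2 hw.2.2]

theorem lU_add (x y : Lam) : lU (addL x y) = addL (lU x) (lU y) :=
  Subtype.ext (funext fun t => by
    show E uQ * (x.1 t + y.1 t) = E uQ * x.1 t + E uQ * y.1 t
    rw [mul_add])

theorem E4_lU (x y : Lam) : E4 (cdv (lU x)) (cdv (lU y)) = E4 (cdv x) (cdv y) := by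
  rw [cdv_lU, cdv_lU, E4_m3_m3 (cdv_spec x).1 (cdv_spec y).1]

/-- The element of order five. -/
def a0 : Co0 := ⟨cj lU, cj_mem lU_add (fun x => E4_lU x x)⟩

theorem a0_psiL (x : Lam) : a0 • psiL x = psiL (lU x) := cj_psiL _ _

theorem lU_pow (n : ℕ) (x : Lam) (t : Fin 3) : ((lU ^ n) x).1 t = (E uQ) ^ n * x.1 t := by
  induction n with
  | zero => simp
  | succ n ih =>
    rw [pow_succ', Equiv.Perm.mul_apply, lU_val, ih, pow_succ', mul_assoc]

theorem cU_pow5 : (E uQ) ^ 5 = 1 := by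
  have h2 : E uQ * E uQ = E (mulI uQ uQ) := E_mulI uQ_inI uQ_inI
  have h3 : E uQ * E (mulI uQ uQ) = E (mulI uQ (mulI uQ uQ)) := E_mulI uQ_inI (by decide)
  have h4 : E uQ * E (mulI uQ (mulI uQ uQ)) = E (mulI uQ (mulI uQ (mulI uQ uQ))) := E_mulI uQ_inI (by decide)
  have h5 : E uQ * E (mulI uQ (mulI uQ (mulI uQ uQ))) = E (mulI uQ (mulI uQ (mulI uQ (mulI uQ uQ)))) :=
    E_mulI uQ_inI (by decide)
  have h6 : mulI uQ (mulI uQ (mulI uQ (mulI uQ uQ))) = one := by decide
  calc (E uQ) ^ 5 = E uQ * (E uQ * (E uQ * (E uQ * E uQ))) := by noncomm_ring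
    _ = 1 := by rw [h2, h3, h4, h5, h6, E_one]

theorem lU_pow5 : lU ^ 5 = 1 := by
  ext1 x
  apply Subtype.ext
  funext t
  rw [lU_pow, cU_pow5, one_mul]
  rfl

theorem a0_pow5 : a0 ^ 5 = 1 := by
  apply Subtype.ext
  show (cj lU) ^ 5 = 1
  rw [← map_pow, lU_pow5, map_one]

theorem a0_ne_one : a0 ≠ 1 := by
  intro h
  obtain ⟨h1, h2⟩ := basis_ok 0 (by simp)
  let x : Lam := ⟨evv (basV 0), evv_mem_of_inLam h1⟩
  have h3 : a0 • psiL x = psiL x := by
    rw [h]
    rfl
  rw [a0_psiL] at h3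
  have h4 := psiL_injective h3
  have h5 := cdv_lU x
  rw [h4, cdv_evv] at h5
  revert h5
  decide

theorem orderOf_a0 : orderOf a0 = 5 := by
  have : Fact (Nat.Prime 5) := ⟨by norm_num⟩
  exact orderOf_eq_prime a0_pow5 a0_ne_one

/-! ### The norm -/

theorem tp_self_eq (q : Q8) : tp q q = pN q + rN q := by
  simp only [tp, mR, mT, pN, rN]
  ring

theorem two_tp_mulI_self {q : Q8} (hq : inI q) : 2 * tp (mulI uQ q) q = rN q := by
  have h : mul uQ q = smul 2 (mulI uQ q) := (mul_of_inI uQ_inI hq).2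
  have key : tp (mul uQ q) q = rN q := by
    simp only [tp, mul, uQ, mR, mT, rN]
    ring
  rw [h, tp_smul_left] at key
  exact key

theorem qip_four_of {v : V3} (hv : allI v) (h1 : E4 v v = 16) (h2 : E4 (m3 uQ v) v = 0) :
    qip (evv v) (evv v) = 4 := by
  have h3 : rN v.1 + rN v.2.1 + rN v.2.2 = 0 := by
    have e1 := two_tp_mulI_self hv.1
    have e2 := two_tp_mulI_self hv.2.1
    have e3 := two_tp_mulI_self hv.2.2
    simp only [E4, m3] at h2
    linarith
  have h4 : pN v.1 + pN v.2.1 + pN v.2.2 = 16 := by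
    simp only [E4, tp_self_eq] at h1
    linarith
  exact (qip_self_iff v).2 ⟨h4, h3⟩

end Cfsg.Agent.Lib.J2Leech

end
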