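import Cfsg.Agent.Lib.J2Leech.Data
import Cfsg.Agent.Lib.J2Ico.Lines
import Cfsg.Agent.Lib.Leech.ZBasis
import Cfsg.Agent.Lib.Leech.Vec

/-!
# The icosian Leech lattice and the Leech lattice in Golay coordinates are isometric

The coordinates of a vector `x` of the icosian Leech lattice are the products with a frame of `24`
orthogonal vectors of norm `8`.
-/

set_option autoImplicit false
set_option maxRecDepth 100000
set_option linter.unusedSectionVars false

noncomputable section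

namespace Cfsg.Agent.Lib.J2Leech

open Cfsg Cfsg.Spor Quaternion Cfsg.Agent.Lib.J2Ico Cfsg.Agent.Lib.J2Ico.Q8
open Cfsg.Agent.Lib.Golay.Core Cfsg.Agent.Lib.Leech.Lat Cfsg.Agent.Lib.Leech.ZBasis Cfsg.Agent.Lib.Leech.Vec

/-! ### The pairing -/

/-- The trace pairing on numerators. -/
def tp (x c : Q8) : ℤ :=
  mR x.a0 x.b0 c.a0 c.b0 + mT x.a0 x.b0 c.a0 c.b0 + mR x.a1 x.b1 c.a1 c.b1 + mT x.a1 x.b1 c.a1 c.b1 +
  mR x.a2 x.b2 c.a2 c.b2 + mT x.a2 x.b2 c.a2 c.b2 + mR x.a3 x.b3 c.a3 c.b3 + mT x.a3 x.b3 c.a3 c.b3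

theorem tp_eq_mul (x c : Q8) : tp x c = (mul x (conj c)).a0 + (mul x (conj c)).b0 := by
  simp only [tp, mul, conj, mR, mT]
  ring

theorem tp_add (x y c : Q8) : tp (add x y) c = tp x c + tp y c := by
  simp only [tp, add, mR, mT]
  ring

theorem tp_neg (x c : Q8) : tp (neg x) c = - tp x c := by
  simp only [tp, neg, mR, mT]
  ring

theorem tp_sub (x y c : Q8) : tp (sub x y) c = tp x c - tp y c := by
  simp only [tp, sub, mR, mT]
  ring

theorem tp_zero_right (x : Q8) : tp x zero = 0 := by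
  simp only [tp, zero, mR, mT]
  ring

theorem tp_zero_left (x : Q8) : tp zero x = 0 := by
  simp only [tp, zero, mR, mT]
  ring

theorem tp_smul_right (k : ℤ) (x c : Q8) : tp x (smul k c) = k * tp x c := by
  simp only [tp, smul, mR, mT]
  ring

theorem tp_smul_left (k : ℤ) (x c : Q8) : tp (smul k x) c = k * tp x c := by
  simp only [tp, smul, mR, mT]
  ring

theorem tp_self (x : Q8) : tp x x = (x.a0 + x.b0) ^ 2 + x.b0 ^ 2 + (x.a1 + x.b1) ^ 2 + x.b1 ^ 2 +
    (x.a2 + x.b2) ^ 2 + x.b2 ^ 2 + (x.a3 + x.b3) ^ 2 + x.b3 ^ 2 := by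
  simp only [tp, mR, mT]
  ring

theorem tp_self_nonneg (x : Q8) : 0 ≤ tp x x := by
  rw [tp_self]
  positivity

theorem tp_self_eq_zero {x : Q8} (h : tp x x = 0) : x = zero := by
  rw [tp_self] at h
  have s0 := sq_nonneg (x.a0 + x.b0)
  have s1 := sq_nonneg x.b0
  have s2 := sq_nonneg (x.a1 + x.b1)
  have s3 := sq_nonneg x.b1
  have s4 := sq_nonneg (x.a2 + x.b2)
  have s5 := sq_nonneg x.b2
  have s6 := sq_nonneg (x.a3 + x.b3)
  have s7 := sq_nonneg x.b3
  have h0 : x.b0 = 0 := pow_eq_zero_iff (two_ne_zero) |>.1 (by linarith)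
  have h1 : x.b1 = 0 := pow_eq_zero_iff (two_ne_zero) |>.1 (by linarith)
  have h2 : x.b2 = 0 := pow_eq_zero_iff (two_ne_zero) |>.1 (by linarith)
  have h3 : x.b3 = 0 := pow_eq_zero_iff (two_ne_zero) |>.1 (by linarith)
  have h4' : x.a0 + x.b0 = 0 := pow_eq_zero_iff (two_ne_zero) |>.1 (by linarith)
  have h5' : x.a1 + x.b1 = 0 := pow_eq_zero_iff (two_ne_zero) |>.1 (by linarith)
  have h6' : x.a2 + x.b2 = 0 := pow_eq_zero_iff (two_ne_zero) |>.1 (by linarith)
  have h7' : x.a3 + x.b3 = 0 := pow_eq_zero_iff (two_ne_zero) |>.1 (by linarith)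
  have h4 : x.a0 = 0 := by omega
  have h5 : x.a1 = 0 := by omega
  have h6 : x.a2 = 0 := by omega
  have h7 : x.a3 = 0 := by omega
  exact ext' h4 h0 h5 h1 h6 h2 h7 h3

/-- The integral form on triples, times four. -/
def E4 (v w : V3) : ℤ := tp v.1 w.1 + tp v.2.1 w.2.1 + tp v.2.2 w.2.2

theorem tp_eq_mulI {x c : Q8} (hx : inI x) (hc : inI c) :
    tp x c = 2 * ((mulI x (conj c)).a0 + (mulI x (conj c)).b0) := by
  rw [tp_eq_mul]
  have h := (mul_of_inI hx (inI_conj hc)).2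
  have h0 := congrArg Q8.a0 h
  have h1 := congrArg Q8.b0 h
  simp only [smul] at h0 h1
  rw [h0, h1]
  simp only [mulI]
  ring

theorem E4_eq_qipQ {v w : V3} (hv : allI v) (hw : allI w) :
    E4 v w = 2 * ((qipQ v w).a0 + (qipQ v w).b0) := by
  rw [E4, tp_eq_mulI hv.1 hw.1, tp_eq_mulI hv.2.1 hw.2.1, tp_eq_mulI hv.2.2 hw.2.2]
  simp only [qipQ, add]
  ring

/-- The form is determined by the Hermitian product. -/
theorem E4_congr {v w v' w' : V3} (hv : allI v) (hw : allI w) (hv' : allI v') (hw' : allI w')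
    (h : qip (evv v) (evv w) = qip (evv v') (evv w')) : E4 v w = E4 v' w' := by
  rw [qip_evv hv hw, qip_evv hv' hw'] at h
  rw [E4_eq_qipQ hv hw, E4_eq_qipQ hv' hw', E_inj h]

/-- The form is divisible by four on the lattice. -/
theorem four_dvd_E4 {v w : V3} (hv : allI v) (hw : allI w) (hvL : evv v ∈ icoLeech) (hwL : evv w ∈ icoLeech) :
    (4 : ℤ) ∣ E4 v w := by
  obtain ⟨c, hc, e⟩ := qip_mem hvL hwL
  obtain ⟨c', hc', rfl⟩ := mem_icosians.1 hc
  have e1 : (2 : ℍ[ℝ]) * E c' = E (smul 2 c') := by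
    rw [E_smul, two_zsmul, two_mul]
  rw [qip_evv hv hw, e1] at e
  have e2 := E_inj e
  rw [E4_eq_qipQ hv hw, e2]
  refine ⟨c'.a0 + c'.b0, ?_⟩
  simp only [smul]
  ring

/-! ### The frame -/

/-- An entry of the frame. -/
def fr (i : ℕ) : ℕ × Q8 := frT.getD i (0, zero)

/-- A block of a triple. -/
def blk (v : V3) : ℕ → Q8
  | 0 => v.1
  | 1 => v.2.1
  | _ => v.2.2

/-- A coordinate, times two. -/
def Tt (v : V3) (i : ℕ) : ℤ := tp (blk v (fr i).1) (fr i).2

theorem Tt_0 (v : V3) : Tt v 0 = tp v.1 ⟨-3,2,1,0,1,0,1,0⟩ := rfl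
theorem Tt_1 (v : V3) : Tt v 1 = tp v.1 ⟨-1,0,-3,2,1,0,-1,0⟩ := rfl
theorem Tt_2 (v : V3) : Tt v 2 = tp v.1 ⟨-1,0,-1,0,-3,2,1,0⟩ := rfl
theorem Tt_3 (v : V3) : Tt v 3 = tp v.1 ⟨-1,0,-1,0,1,-2,1,0⟩ := rfl
theorem Tt_4 (v : V3) : Tt v 4 = tp v.1 ⟨-1,0,1,-2,1,0,-1,0⟩ := rfl
theorem Tt_5 (v : V3) : Tt v 5 = tp v.2.1 ⟨-3,2,1,0,1,0,1,0⟩ := rfl
theorem Tt_6 (v : V3) : Tt v 6 = tp v.2.2 ⟨-1,0,1,0,-1,0,-3,2⟩ := rfl
theorem Tt_7 (v : V3) : Tt v 7 = tp v.1 ⟨-1,0,1,0,-1,0,-3,2⟩ := rfl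
theorem Tt_8 (v : V3) : Tt v 8 = tp v.2.1 ⟨-1,0,1,0,-1,0,1,-2⟩ := rfl
theorem Tt_9 (v : V3) : Tt v 9 = tp v.2.1 ⟨-1,0,-1,0,1,-2,1,0⟩ := rfl
theorem Tt_10 (v : V3) : Tt v 10 = tp v.1 ⟨1,-2,1,0,1,0,1,0⟩ := rfl
theorem Tt_11 (v : V3) : Tt v 11 = tp v.2.1 ⟨-1,0,1,0,-1,0,-3,2⟩ := rfl
theorem Tt_12 (v : V3) : Tt v 12 = tp v.1 ⟨-1,0,1,0,-1,0,1,-2⟩ := rfl
theorem Tt_13 (v : V3) : Tt v 13 = tp v.2.1 ⟨1,-2,1,0,1,0,1,0⟩ := rfl
theorem Tt_14 (v : V3) : Tt v 14 = tp v.2.2 ⟨-1,0,1,-2,1,0,-1,0⟩ := rfl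
theorem Tt_15 (v : V3) : Tt v 15 = tp v.2.2 ⟨-1,0,1,0,-1,0,1,-2⟩ := rfl
theorem Tt_16 (v : V3) : Tt v 16 = tp v.2.1 ⟨-1,0,-1,0,-3,2,1,0⟩ := rfl
theorem Tt_17 (v : V3) : Tt v 17 = tp v.2.1 ⟨-1,0,1,-2,1,0,-1,0⟩ := rfl
theorem Tt_18 (v : V3) : Tt v 18 = tp v.2.2 ⟨1,-2,1,0,1,0,1,0⟩ := rfl
theorem Tt_19 (v : V3) : Tt v 19 = tp v.2.2 ⟨-1,0,-1,0,-3,2,1,0⟩ := rfl
theorem Tt_20 (v : V3) : Tt v 20 = tp v.2.1 ⟨-1,0,-3,2,1,0,-1,0⟩ := rfl
theorem Tt_21 (v : V3) : Tt v 21 = tp v.2.2 ⟨-1,0,-3,2,1,0,-1,0⟩ := rfl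
theorem Tt_22 (v : V3) : Tt v 22 = tp v.2.2 ⟨-1,0,-1,0,1,-2,1,0⟩ := rfl
theorem Tt_23 (v : V3) : Tt v 23 = tp v.2.2 ⟨-3,2,1,0,1,0,1,0⟩ := rfl

theorem gram (v w : V3) : ∑ i ∈ Finset.range 24, Tt v i * Tt w i = 8 * E4 v w := by
  simp only [Finset.sum_range_succ, Finset.range_zero, Finset.sum_empty, Tt_0, Tt_1, Tt_2, Tt_3, Tt_4, Tt_5, Tt_6, Tt_7, Tt_8, Tt_9, Tt_10, Tt_11, Tt_12, Tt_13, Tt_14, Tt_15, Tt_16, Tt_17, Tt_18, Tt_19, Tt_20, Tt_21, Tt_22, Tt_23, E4, tp, mR, mT]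
  ring

/-- The vectors of the frame. -/
def frV (i : ℕ) : V3 :=
  match (fr i).1 with
  | 0 => (smul 2 (fr i).2, zero, zero)
  | 1 => (zero, smul 2 (fr i).2, zero)
  | _ => (zero, zero, smul 2 (fr i).2)

theorem frV_ok : ∀ i ∈ List.range 24, inLam (frV i) := by decide +kernel

theorem E4_frV (v : V3) (i : ℕ) : E4 v (frV i) = 2 * Tt v i := by
  unfold frV Tt
  rcases h : (fr i).1 with _ | _ | j
  · simp only [blk, E4, tp_smul_right, tp_zero_right]
    ring
  · simp only [blk, E4, tp_smul_right, tp_zero_right]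
    ring
  · simp only [blk, E4, tp_smul_right, tp_zero_right]
    ring

theorem two_dvd_Tt {v : V3} (hv : allI v) (hvL : evv v ∈ icoLeech) {i : ℕ} (hi : i < 24) :
    (2 : ℤ) ∣ Tt v i := by
  have h1 := frV_ok i (List.mem_range.2 hi)
  have h2 := four_dvd_E4 hv h1.1 hvL (evv_mem_of_inLam h1)
  rw [E4_frV] at h2
  obtain ⟨k, hk⟩ := h2
  exact ⟨k, by linarith⟩

/-! ### Coordinates of lattice vectors -/

/-- The coordinates of a lattice vector. -/
def cdv (x : Lam) : V3 := Classical.choose (exists_evv x.2)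

theorem cdv_spec (x : Lam) : allI (cdv x) ∧ x.1 = evv (cdv x) := Classical.choose_spec (exists_evv x.2)

theorem cdv_evv {v : V3} (hv : evv v ∈ icoLeech) : cdv ⟨evv v, hv⟩ = v :=
  evv_injective (cdv_spec _).2.symm

theorem evv_cdv_mem (x : Lam) : evv (cdv x) ∈ icoLeech := by
  rw [← (cdv_spec x).2]
  exact x.2

/-- The image of a lattice vector. -/
def psi0 (x : Lam) : GolayPt → ℤ := fun p => Tt (cdv x) (idx p) / 2

theorem two_mul_psi0 (x : Lam) (p : GolayPt) : 2 * psi0 x p = Tt (cdv x) (idx p) :=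
  Int.mul_ediv_cancel' (two_dvd_Tt (cdv_spec x).1 (evv_cdv_mem x) (idx_lt p))

theorem dot_psi0 (x y : Lam) : dotInt (psi0 x) (psi0 y) = 2 * E4 (cdv x) (cdv y) := by
  have h1 : 4 * dotInt (psi0 x) (psi0 y) = ∑ i ∈ Finset.range 24, Tt (cdv x) i * Tt (cdv y) i := by
    unfold dotInt
    rw [sum_golay, Finset.mul_sum]
    refine Finset.sum_congr rfl fun i hi => ?_
    have hi' := Finset.mem_range.1 hi
    have e1 := two_mul_psi0 x (pt i)
    have e2 := two_mul_psi0 y (pt i)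
    rw [idx_pt hi'] at e1 e2
    rw [← e1, ← e2]
    ring
  rw [gram] at h1
  linarith

/-! ### The image is in the lattice -/

theorem list_sum_range (f : ℕ → ℤ) (n : ℕ) : ((List.range n).map f).sum = ∑ i ∈ Finset.range n, f i := by
  induction n with
  | zero => simp
  | succ n ih =>
    rw [List.range_succ, List.map_append, List.sum_append, ih, Finset.sum_range_succ]
    simp

/-- The dual vectors, as triples. -/
def dualV (l : ℕ) : V3 := dVT.getD l (zero, zero, zero)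

/-- The dual vectors, in the Leech coordinates. -/
def dualF (l : ℕ) : GolayPt → ℤ := fun p => tab dTT l (idx p)

theorem dual_ok : ∀ l ∈ List.range 24, inLam (dualV l) ∧ ∀ i ∈ List.range 24, Tt (dualV l) i = 2 * tab dTT l i := by
  decide +kernel

theorem dual_table : ∀ i ∈ List.range 24, ∀ q ∈ List.range 24,
    ((List.range 24).map fun l => tab bT l i * tab dTT l q).sum = if i = q then 8 else 0 := by
  decide +kernel

theorem expand (y : GolayPt → ℤ) (p : GolayPt) :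
    ∑ l ∈ Finset.range 24, b l p * dotInt y (dualF l) = 8 * y p := by
  unfold dotInt
  simp only [sum_golay, Finset.mul_sum]
  rw [Finset.sum_comm]
  have h : ∀ i ∈ Finset.range 24, ∑ l ∈ Finset.range 24, b l p * (y (pt i) * dualF l (pt i)) =
      if idx p = i then 8 * y (pt i) else 0 := by
    intro i hi
    have hi' := Finset.mem_range.1 hi
    have h1 := dual_table (idx p) (List.mem_range.2 (idx_lt p)) i (List.mem_range.2 hi')
    rw [list_sum_range] at h1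
    have h2 : ∑ l ∈ Finset.range 24, b l p * (y (pt i) * dualF l (pt i)) =
        y (pt i) * ∑ l ∈ Finset.range 24, tab bT l (idx p) * tab dTT l i := by
      rw [Finset.mul_sum]
      refine Finset.sum_congr rfl fun l _ => ?_
      simp only [b, dualF, idx_pt hi']
      ring
    rw [h2, h1]
    split_ifs <;> ring
  rw [Finset.sum_congr rfl h, Finset.sum_ite_eq]
  simp [idx_lt p, pt_idx]

theorem psi0_mem (x : Lam) : psi0 x ∈ leechLattice := by
  have hD : ∀ l, l < 24 → ∃ m : ℤ, dotInt (psi0 x) (dualF l) = 8 * m := by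
    intro l hl
    obtain ⟨h1, h2⟩ := dual_ok l (List.mem_range.2 hl)
    have hL := evv_mem_of_inLam h1
    have e : psi0 ⟨evv (dualV l), hL⟩ = dualF l := by
      funext p
      unfold psi0 dualF
      rw [cdv_evv, h2 (idx p) (List.mem_range.2 (idx_lt p))]
      simp
    rw [← e, dot_psi0, cdv_evv]
    obtain ⟨k, hk⟩ := four_dvd_E4 (cdv_spec x).1 h1.1 (evv_cdv_mem x) hL
    exact ⟨k, by rw [hk]; ring⟩
  choose! m hm using hD
  have : psi0 x = (comb m).1 := by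
    funext p
    rw [comb_apply, list_sum_range]
    have h1 := expand (psi0 x) p
    have h2 : ∑ l ∈ Finset.range 24, b l p * dotInt (psi0 x) (dualF l) =
        8 * ∑ l ∈ Finset.range 24, m l * b l p := by
      rw [Finset.mul_sum]
      refine Finset.sum_congr rfl fun l hl => ?_
      rw [hm l (Finset.mem_range.1 hl)]
      ring
    rw [h2] at h1
    linarith
  rw [this]
  exact (comb m).2

/-- The map to the lattice in the Golay coordinates. -/
def psiL (x : Lam) : L := ⟨psi0 x, psi0_mem x⟩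

/-! ### Additivity -/

/-- Sum of triples. -/
def add3 (v w : V3) : V3 := (add v.1 w.1, add v.2.1 w.2.1, add v.2.2 w.2.2)

/-- Negative of a triple. -/
def neg3 (v : V3) : V3 := (neg v.1, neg v.2.1, neg v.2.2)

theorem Tt_add3 (v w : V3) (i : ℕ) : Tt (add3 v w) i = Tt v i + Tt w i := by
  unfold Tt
  rcases (fr i).1 with _ | _ | j <;> simp only [blk, add3, tp_add]

theorem Tt_neg3 (v : V3) (i : ℕ) : Tt (neg3 v) i = - Tt v i := by
  unfold Tt
  rcases (fr i).1 with _ | _ | j <;> simp only [blk, neg3, tp_neg]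

theorem cdv_addL (x y : Lam) : cdv (addL x y) = add3 (cdv x) (cdv y) := by
  apply evv_injective
  rw [← (cdv_spec _).2]
  funext t
  show x.1 t + y.1 t = _
  rw [(cdv_spec x).2, (cdv_spec y).2]
  fin_cases t
  · show E _ + E _ = E _
    rw [E_add]
    rfl
  · show E _ + E _ = E _
    rw [E_add]
    rfl
  · show E _ + E _ = E _
    rw [E_add]
    rfl

theorem psi0_addL (x y : Lam) (p : GolayPt) : psi0 (addL x y) p = psi0 x p + psi0 y p := by
  have h1 := two_mul_psi0 (addL x y) p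
  have h2 := two_mul_psi0 x p
  have h3 := two_mul_psi0 y p
  rw [cdv_addL, Tt_add3, ← h2, ← h3] at h1
  linarith

theorem psiL_add (x y : Lam) : psiL (addL x y) = psiL x + psiL y :=
  Subtype.ext (funext fun p => psi0_addL x y p)

/-- The negative of a lattice vector. -/
def negV (x : Lam) : Lam := ⟨fun t => - x.1 t, lam_neg x.2⟩

theorem cdv_negV (x : Lam) : cdv (negV x) = neg3 (cdv x) := by
  apply evv_injective
  rw [← (cdv_spec _).2]
  funext t
  show - x.1 t = _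
  rw [(cdv_spec x).2]
  fin_cases t
  · show - E _ = E _
    rw [E_neg]
    rfl
  · show - E _ = E _
    rw [E_neg]
    rfl
  · show - E _ = E _
    rw [E_neg]
    rfl

theorem psiL_neg (x : Lam) : psiL (negV x) = - psiL x := by
  apply Subtype.ext
  funext p
  have h1 := two_mul_psi0 (negV x) p
  have h2 := two_mul_psi0 x p
  rw [cdv_negV, Tt_neg3, ← h2] at h1
  show psi0 (negV x) p = - psi0 x p
  linarith

/-! ### Injectivity and surjectivity -/

/-- Difference of triples. -/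
def sub3 (v w : V3) : V3 := (sub v.1 w.1, sub v.2.1 w.2.1, sub v.2.2 w.2.2)

theorem Tt_sub3 (v w : V3) (i : ℕ) : Tt (sub3 v w) i = Tt v i - Tt w i := by
  unfold Tt
  rcases (fr i).1 with _ | _ | j <;> simp only [blk, sub3, tp_sub]

theorem eq_of_Tt {v w : V3} (h : ∀ i ∈ Finset.range 24, Tt v i = Tt w i) : v = w := by
  have h1 := gram (sub3 v w) (sub3 v w)
  have h2 : ∑ i ∈ Finset.range 24, Tt (sub3 v w) i * Tt (sub3 v w) i = 0 :=
    Finset.sum_eq_zero fun i hi => by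
      rw [Tt_sub3, h i hi]
      ring
  rw [h2] at h1
  have h3 : E4 (sub3 v w) (sub3 v w) = 0 := by linarith
  unfold E4 at h3
  have a1 := tp_self_nonneg (sub3 v w).1
  have a2 := tp_self_nonneg (sub3 v w).2.1
  have a3 := tp_self_nonneg (sub3 v w).2.2
  have b1 : sub v.1 w.1 = zero := tp_self_eq_zero (show tp (sub3 v w).1 (sub3 v w).1 = 0 by linarith)
  have b2 : sub v.2.1 w.2.1 = zero := tp_self_eq_zero (show tp (sub3 v w).2.1 (sub3 v w).2.1 = 0 by linarith)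
  have b3 : sub v.2.2 w.2.2 = zero := tp_self_eq_zero (show tp (sub3 v w).2.2 (sub3 v w).2.2 = 0 by linarith)
  have key : ∀ {a b : Q8}, sub a b = zero → a = b := by
    intro a b hab
    have e0 := congrArg Q8.a0 hab
    have e1 := congrArg Q8.b0 hab
    have e2 := congrArg Q8.a1 hab
    have e3 := congrArg Q8.b1 hab
    have e4 := congrArg Q8.a2 hab
    have e5 := congrArg Q8.b2 hab
    have e6 := congrArg Q8.a3 hab
    have e7 := congrArg Q8.b3 hab
    simp only [sub, zero] at e0 e1 e2 e3 e4 e5 e6 e7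
    apply ext' <;> omega
  exact Prod.ext (key b1) (Prod.ext (key b2) (key b3))

theorem psiL_injective : Function.Injective psiL := by
  intro x y h
  apply Subtype.ext
  rw [(cdv_spec x).2, (cdv_spec y).2]
  refine congrArg evv (eq_of_Tt ?_)
  intro i hi
  have hi' := Finset.mem_range.1 hi
  have h1 := two_mul_psi0 x (pt i)
  have h2 := two_mul_psi0 y (pt i)
  rw [idx_pt hi'] at h1 h2
  rw [← h1, ← h2]
  have h3 : psi0 x (pt i) = psi0 y (pt i) := congrFun (congrArg Subtype.val h) (pt i)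
  rw [h3]

/-- The basis vectors, as triples. -/
def basV (k : ℕ) : V3 := bVT.getD k (zero, zero, zero)

theorem basis_ok : ∀ k ∈ List.range 24, inLam (basV k) ∧ ∀ i ∈ List.range 24, Tt (basV k) i = 2 * tab bT k i := by
  decide +kernel

/-- The zero vector. -/
def zeroV : Lam := ⟨evv (zero, zero, zero), evv_mem_of_inLam (by decide)⟩

theorem psiL_zero : psiL zeroV = 0 := by
  apply Subtype.ext
  funext p
  show Tt (cdv zeroV) (idx p) / 2 = 0
  unfold zeroV
  rw [cdv_evv]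
  unfold Tt
  rcases (fr (idx p)).1 with _ | _ | j <;> simp only [blk, tp_zero_left] <;> rfl

/-- The range of the map. -/
def psiR : AddSubgroup L where
  carrier := Set.range psiL
  zero_mem' := ⟨zeroV, psiL_zero⟩
  add_mem' := by
    rintro _ _ ⟨x, rfl⟩ ⟨y, rfl⟩
    exact ⟨addL x y, psiL_add x y⟩
  neg_mem' := by
    rintro _ ⟨x, rfl⟩
    exact ⟨negV x, psiL_neg x⟩

theorem bL_mem {k : ℕ} (hk : k < 24) : bL k ∈ psiR := by
  obtain ⟨h1, h2⟩ := basis_ok k (List.mem_range.2 hk)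
  refine ⟨⟨evv (basV k), evv_mem_of_inLam h1⟩, ?_⟩
  apply Subtype.ext
  funext p
  show Tt (cdv _) (idx p) / 2 = tab bT k (idx p)
  rw [cdv_evv, h2 (idx p) (List.mem_range.2 (idx_lt p))]
  simp

theorem psiL_surjective : Function.Surjective psiL := by
  intro y
  obtain ⟨a, rfl⟩ := exists_comb y
  show comb a ∈ psiR
  unfold comb
  apply AddSubgroup.list_sum_mem
  intro z hz
  obtain ⟨m, hm, rfl⟩ := List.mem_map.1 hz
  exact AddSubgroup.zsmul_mem _ (bL_mem (List.mem_range.1 hm)) _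

/-- The isometry, as an equivalence. -/
def psiE : Lam ≃ L := Equiv.ofBijective psiL ⟨psiL_injective, psiL_surjective⟩

@[simp] theorem psiE_apply (x : Lam) : psiE x = psiL x := rfl

theorem dot_psiL (x y : Lam) : dotInt (psiL x).1 (psiL y).1 = 2 * E4 (cdv x) (cdv y) := dot_psi0 x y

theorem sqNorm_psiL (x : Lam) : sqNorm (psiL x).1 = 2 * E4 (cdv x) (cdv x) := by
  rw [← dotInt_self, dot_psiL]

end Cfsg.Agent.Lib.J2Leech

end
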