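import Cfsg.Agent.Lib.J2Leech.Check

/-!
# The bound for the order of the centralizer
-/

set_option autoImplicit false
set_option maxRecDepth 100000
set_option linter.unusedSectionVars false

noncomputable section

namespace Cfsg.Agent.Lib.J2Leech

open Cfsg Cfsg.Spor Quaternion Cfsg.Agent.Lib.J2Ico Cfsg.Agent.Lib.J2Ico.Q8
open Cfsg.Agent.Lib.Golay.Core Cfsg.Agent.Lib.Golay.Perm Cfsg.Agent.Lib.Leech.Lat Cfsg.Agent.Lib.Leech.ZBasis
  Cfsg.Agent.Lib.Leech.Vec Cfsg.Agent.Lib.Leech.Cert

/-! ### Tables -/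

/-- The vectors of the base and their images. -/
def np (j i : ℕ) : ℕ := (npT.getD j []).getD i 0

/-- The images of the alternative. -/
def altN (i : ℕ) : ℕ := altP.getD i 0

/-- The base vectors, as triples. -/
def rV (j : ℕ) : V3 := rVT.getD j (zero, zero, zero)

/-- The images of the base vectors, as triples. -/
def Pv (j i : ℕ) : V3 := (m3 uQ)^[i] (rV j)

/-- The images of the alternative, as triples. -/
def Av (i : ℕ) : V3 := (m3 uQ)^[i] altV

theorem P_ok : ∀ j ∈ List.range 6, ∀ i ∈ List.range 4,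
    inLam (Pv j i) ∧ okPk (Pv j i) (np j i) = true ∧ inL (np j i) = true ∧
      E4 (Pv j i) (Pv j i) = 16 ∧ E4 (m3 uQ (Pv j i)) (Pv j i) = 0 := by
  decide +kernel

theorem A_ok : ∀ i ∈ List.range 4, inLam (Av i) ∧ okPk (Av i) (altN i) = true ∧ inL (altN i) = true := by
  decide +kernel

theorem alt_eq : altN 0 = 686053159037426471753302077614864912 := by decide +kernel

theorem np4_eq : np 4 0 = 688568257056439358252051193651542544 := by decide +kernel

theorem np5_eq : np 5 0 = 600299049606435514806160138684613136 := by decide +kernel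

theorem c1_ok : (∀ c ∈ c1, ∃ j ∈ List.range 1, ∃ i ∈ List.range 4, c.1 = np j i) ∧ condsB c1 (np 1 0) = true := by
  decide +kernel

theorem c2_ok : (∀ c ∈ c2, ∃ j ∈ List.range 2, ∃ i ∈ List.range 4, c.1 = np j i) ∧ condsB c2 (np 2 0) = true := by
  decide +kernel

theorem c3_ok : (∀ c ∈ c3, ∃ j ∈ List.range 3, ∃ i ∈ List.range 4, c.1 = np j i) ∧ condsB c3 (np 3 0) = true := by
  decide +kernel

theorem c4_ok : (∀ c ∈ c4, ∃ j ∈ List.range 4, ∃ i ∈ List.range 4, c.1 = np j i) ∧ condsB c4 (np 4 0) = true := by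
  decide +kernel

theorem c5_ok : (∀ c ∈ c5, ∃ j ∈ List.range 5, ∃ i ∈ List.range 4, c.1 = np j i) ∧ condsB c5 (np 5 0) = true := by
  decide +kernel

theorem cW_ok : ∀ c ∈ cW, (∃ j ∈ List.range 4, ∃ i ∈ List.range 4, c.1 = np j i ∧ dotIs (np 5 0) c.1 c.2.1 c.2.2 = true) ∨
    (∃ i ∈ List.range 4, c.1 = altN i ∧ dotIs (np 5 0) (np 4 i) c.2.1 c.2.2 = true) := by
  decide +kernel

/-- The vectors of the base and their images, in one list. -/
def wN (l : ℕ) : ℕ := np (l / 4) (l % 4)

theorem P_table : ∀ i ∈ List.range 24, ∀ q ∈ List.range 24,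
    ((List.range 24).map fun l => tab pT i l * (((img (wN l) q : ℕ) : ℤ) - 16)).sum = if i = q then 248 else 0 := by
  decide +kernel

/-! ### Packed vectors as lattice vectors -/

/-- A packed vector as a lattice vector. -/
def vc (n : ℕ) : L := if h : inL n = true then ⟨dec n, mem_of_inL h⟩ else 0

theorem vc_val {n : ℕ} (h : inL n = true) : (vc n).1 = dec n := by
  simp [vc, h]

theorem eq_vc {y : L} {n : ℕ} (h : y.1 = dec n) : y = vc n := by
  have hn : inL n = true := inL_of_mem (h ▸ y.2)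
  exact Subtype.ext (by rw [vc_val hn, h])

theorem psiL_eq_dec {x : Lam} {n : ℕ} (h : okPk (cdv x) n = true) : (psiL x).1 = dec n := by
  funext p
  have h1 := (List.all_eq_true.1 h) (idx p) (List.mem_range.2 (idx_lt p))
  have h2 : Tt (cdv x) (idx p) = 2 * (((img n (idx p) : ℕ) : ℤ) - 16) := of_decide_eq_true h1
  show Tt (cdv x) (idx p) / 2 = _
  have h3 := dec_pt n (idx_lt p)
  rw [pt_idx] at h3
  rw [h2, h3]
  simp

/-! ### The centralizer -/

/-- The centralizer of the element of order five. -/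
def KK : Subgroup Co0 := Subgroup.centralizer {a0}

theorem mem_KK {g : Co0} : g ∈ KK ↔ a0 * g = g * a0 := by
  unfold KK
  rw [Subgroup.mem_centralizer_iff]
  constructor
  · intro h
    exact h a0 rfl
  · rintro h _ rfl
    exact h

theorem comm_smul {g : Co0} (hg : g ∈ KK) (v : L) : g • (a0 • v) = a0 • (g • v) := by
  rw [← mul_smul, ← mul_smul, mem_KK.1 hg]

/-- Packing determines the coordinates. -/
theorem okPk_of_pk {x : Lam} {n : ℕ} (h3 : E4 (cdv x) (cdv x) = 16) (hn : n ≤ 1329227995784915872903807060280344575)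
    (h : ((2 * pk (cdv x) : ℤ) : ZMod MM) + ((2744212636459181156962698447030388800 : ℕ) : ZMod MM) =
      ((4 * n : ℕ) : ZMod MM)) : okPk (cdv x) n = true := by
  have h2 : ∀ i < 24, Tt (cdv x) i = 2 * (Tt (cdv x) i / 2) := fun i hi =>
    (Int.mul_ediv_cancel' (two_dvd_Tt (cdv_spec x).1 (evv_cdv_mem x) hi)).symm
  have hg := gram (cdv x) (cdv x)
  rw [h3] at hg
  have hb : ∀ i < 24, Tt (cdv x) i * Tt (cdv x) i ≤ 128 := by
    intro i hi
    have h4 := Finset.single_le_sum (f := fun i => Tt (cdv x) i * Tt (cdv x) i)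
      (fun j _ => mul_self_nonneg _) (Finset.mem_range.2 hi)
    rw [hg] at h4
    linarith
  have hb2 : ∀ i < 24, -5 ≤ Tt (cdv x) i / 2 ∧ Tt (cdv x) i / 2 ≤ 5 := by
    intro i hi
    have h5 := hb i hi
    rw [h2 i hi] at h5
    have h6 : Tt (cdv x) i / 2 = 2 * (Tt (cdv x) i / 2) / 2 := by
      rw [Int.mul_ediv_cancel_left _ (by norm_num)]
    generalize Tt (cdv x) i / 2 = t at h5 ⊢
    constructor <;> nlinarith
  let d : ℕ → ℕ := fun i => (Tt (cdv x) i / 2 + 16).toNat
  have hd : ∀ i < 24, ((d i : ℕ) : ℤ) = Tt (cdv x) i / 2 + 16 := fun i hi =>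
    Int.toNat_of_nonneg (by have := (hb2 i hi).1; omega)
  have hd32 : ∀ i < 24, d i < 32 := by
    intro i hi
    have h5 := hd i hi
    have h6 := (hb2 i hi).2
    omega
  have hP : ∀ k, ((pack d k : ℕ) : ℤ) = ∑ i ∈ Finset.range k, ((d i : ℕ) : ℤ) * 32 ^ i := by
    intro k
    induction k with
    | zero => simp [pack]
    | succ k ih =>
      rw [pack_succ, Finset.sum_range_succ, ← ih, pow_mul]
      push_cast
      norm_num
  have hpk : pk (cdv x) = 2 * ∑ i ∈ Finset.range 24, (Tt (cdv x) i / 2) * 32 ^ i := by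
    unfold pk
    rw [Finset.mul_sum]
    apply Finset.sum_congr rfl
    intro i hi
    have := h2 i (Finset.mem_range.1 hi)
    nth_rewrite 1 [this]
    ring
  have hP2 : ((pack d 24 : ℕ) : ℤ) = ∑ i ∈ Finset.range 24, (Tt (cdv x) i / 2) * 32 ^ i + off := by
    rw [hP]
    have h7 : off = ∑ i ∈ Finset.range 24, (16 : ℤ) * 32 ^ i := by
      simp [off, Finset.sum_range_succ]
    rw [h7, ← Finset.sum_add_distrib]
    apply Finset.sum_congr rfl
    intro i hi
    rw [hd i (Finset.mem_range.1 hi)]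
    ring
  have h8 : ((4 * pack d 24 : ℕ) : ℤ) = 2 * pk (cdv x) + ((2744212636459181156962698447030388800 : ℕ) : ℤ) := by
    push_cast
    rw [hP2, hpk]
    simp only [off]
    ring
  have h9 : ((4 * pack d 24 : ℕ) : ZMod MM) = ((4 * n : ℕ) : ZMod MM) := by
    rw [← h]
    have := congrArg (fun z : ℤ => (z : ZMod MM)) h8
    simp only [Int.cast_natCast, Int.cast_add] at this
    exact this
  rw [ZMod.natCast_eq_natCast_iff'] at h9
  have h10 := pack_lt d 24 hd32
  have h11 : (2 : ℕ) ^ (5 * 24) = 1329227995784915872903807060280344576 := by norm_num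
  rw [h11] at h10
  have h13 : MM = 5316911983139663491615228241121378304 := rfl
  rw [Nat.mod_eq_of_lt (by rw [h13]; omega), Nat.mod_eq_of_lt (by rw [h13]; omega)] at h9
  have h12 : n = pack d 24 := by omega
  refine List.all_eq_true.2 fun i hi => ?_
  have hi' := List.mem_range.1 hi
  apply decide_eq_true
  rw [h12, img_pack d 24 i hd32 hi', hd i hi']
  have := h2 i hi'
  omega

/-- The characterization of the list. -/
theorem char_Y (y : L) (h1 : sqNorm y.1 = 32) (h2 : dotInt (a0 • y).1 y.1 = 0) : ∃ m ∈ Yl, y.1 = dec m := by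
  obtain ⟨x, rfl⟩ := psiL_surjective y
  rw [sqNorm_psiL] at h1
  rw [a0_psiL, dot_psiL, cdv_lU] at h2
  have h3 : E4 (cdv x) (cdv x) = 16 := by linarith
  have h4 : E4 (m3 uQ (cdv x)) (cdv x) = 0 := by linarith
  have h5 := qip_four_of (cdv_spec x).1 h3 h4
  obtain ⟨u, hu, w, hw, e⟩ := exists_unit_rep (r := evv (cdv x)) ⟨evv_cdv_mem x, h5⟩
  have huI : inI u := (units_ok u hu).1
  have hwI : allI w := rep_allI hw
  have e1 : cdv x = m3 u w := by
    apply evv_injective
    rw [e]
    funext t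
    rw [evv_m3 huI hwI]
    rfl
  obtain ⟨n, hn, hle, h7⟩ := chk_sound chk_all hu hw
  refine ⟨n, hn, psiL_eq_dec (okPk_of_pk h3 hle ?_)⟩
  rw [pk_M3 huI hwI, ← e1] at h7
  exact h7

theorem smul_Y {g : Co0} (hg : g ∈ KK) (y : L) (h1 : sqNorm y.1 = 32) (h2 : dotInt (a0 • y).1 y.1 = 0) :
    ∃ m ∈ Yl, (g • y).1 = dec m := by
  apply char_Y
  · rw [smul_sqNorm]
    exact h1
  · rw [← comm_smul hg, smul_dot]
    exact h2

/-! ### The stabilizer chain -/

theorem inLam_P {j i : ℕ} (hj : j < 6) (hi : i < 4) : inLam (Pv j i) :=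
  (P_ok j (List.mem_range.2 hj) i (List.mem_range.2 hi)).1

/-- The lattice vector of a triple. -/
def lamP (j i : ℕ) (hj : j < 6) (hi : i < 4) : Lam := ⟨evv (Pv j i), evv_mem_of_inLam (inLam_P hj hi)⟩

theorem vc_np {j i : ℕ} (hj : j < 6) (hi : i < 4) : vc (np j i) = psiL (lamP j i hj hi) := by
  obtain ⟨-, h2, -, -, -⟩ := P_ok j (List.mem_range.2 hj) i (List.mem_range.2 hi)
  symm
  apply eq_vc
  apply psiL_eq_dec
  unfold lamP
  rw [cdv_evv]
  exact h2

theorem vc_val_np {j i : ℕ} (hj : j < 6) (hi : i < 4) : (vc (np j i)).1 = dec (np j i) :=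
  vc_val (P_ok j (List.mem_range.2 hj) i (List.mem_range.2 hi)).2.2.1

theorem lU_evv {v : V3} (hv : allI v) (hL : evv v ∈ icoLeech) (hL' : evv (m3 uQ v) ∈ icoLeech) :
    lU ⟨evv v, hL⟩ = ⟨evv (m3 uQ v), hL'⟩ := by
  apply Subtype.ext
  funext t
  rw [lU_val]
  exact (evv_m3 uQ_inI hv t).symm

theorem a0_np {j i : ℕ} (hj : j < 6) (hi : i + 1 < 4) : a0 • vc (np j i) = vc (np j (i + 1)) := by
  rw [vc_np hj (by omega), vc_np hj hi, a0_psiL]
  congr 1
  unfold lamP
  apply Subtype.ext
  funext t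
  rw [lU_val]
  have h1 := (inLam_P hj (show i < 4 by omega)).1
  have h2 := evv_m3 uQ_inI h1 t
  have h3 : Pv j (i + 1) = m3 uQ (Pv j i) := by
    unfold Pv
    rw [Function.iterate_succ_apply']
  show E uQ * evv (Pv j i) t = evv (Pv j (i + 1)) t
  rw [h3, h2]

theorem norm_np {j i : ℕ} (hj : j < 6) (hi : i < 4) : sqNorm (vc (np j i)).1 = 32 := by
  obtain ⟨-, -, -, h4, -⟩ := P_ok j (List.mem_range.2 hj) i (List.mem_range.2 hi)
  rw [vc_np hj hi, sqNorm_psiL]
  unfold lamP
  rw [cdv_evv, h4]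
  rfl

theorem dot_np {j i : ℕ} (hj : j < 6) (hi : i < 4) : dotInt (a0 • vc (np j i)).1 (vc (np j i)).1 = 0 := by
  obtain ⟨h0, -, -, -, h5⟩ := P_ok j (List.mem_range.2 hj) i (List.mem_range.2 hi)
  rw [vc_np hj hi, a0_psiL, dot_psiL, cdv_lU]
  unfold lamP
  rw [cdv_evv, h5]
  rfl

theorem a0_alt {i : ℕ} (hi : i + 1 < 4) : a0 • vc (altN i) = vc (altN (i + 1)) := by
  have hA : ∀ k, (hk : k < 4) → vc (altN k) = psiL ⟨evv (Av k), evv_mem_of_inLam (A_ok k (List.mem_range.2 hk)).1⟩ := by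
    intro k hk
    symm
    apply eq_vc
    apply psiL_eq_dec
    rw [cdv_evv]
    exact (A_ok k (List.mem_range.2 hk)).2.1
  rw [hA i (by omega), hA (i + 1) hi, a0_psiL]
  congr 1
  apply Subtype.ext
  funext t
  rw [lU_val]
  have h1 := (A_ok i (List.mem_range.2 (by omega))).1.1
  have h2 := evv_m3 uQ_inI h1 t
  have h3 : Av (i + 1) = m3 uQ (Av i) := by
    unfold Av
    rw [Function.iterate_succ_apply']
  show E uQ * evv (Av i) t = evv (Av (i + 1)) t
  rw [h3, h2]

/-- The pointwise stabilizers in the centralizer. -/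
def St : ℕ → Subgroup Co0
  | 0 => KK
  | l + 1 => St l ⊓ MulAction.stabilizer Co0 (vc (np l 0))

theorem mem_St {l : ℕ} {g : Co0} : g ∈ St l ↔ g ∈ KK ∧ ∀ j < l, g • vc (np j 0) = vc (np j 0) := by
  induction l with
  | zero => simp [St]
  | succ l ih =>
    simp only [St, Subgroup.mem_inf, ih, MulAction.mem_stabilizer_iff]
    constructor
    · rintro ⟨⟨h1, h2⟩, h3⟩
      refine ⟨h1, fun j hj => ?_⟩
      rcases Nat.lt_succ_iff_lt_or_eq.1 hj with h | rfl
      · exact h2 j h
      · exact h3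
    · rintro ⟨h1, h2⟩
      exact ⟨⟨h1, fun j hj => h2 j (by omega)⟩, h2 l (by omega)⟩

theorem fix_np {g : Co0} (hg : g ∈ KK) {j : ℕ} (hj : j < 6) (h : g • vc (np j 0) = vc (np j 0)) {i : ℕ} (hi : i < 4) :
    g • vc (np j i) = vc (np j i) := by
  induction i with
  | zero => exact h
  | succ i ih =>
    rw [← a0_np hj hi, comm_smul hg, ih (by omega)]

theorem conds_of {g : Co0} {n0 m : ℕ} {cs : List (ℕ × ℕ × ℕ)} (h0 : inL n0 = true) (hm : (g • vc n0).1 = dec m)
    (h : ∀ c ∈ cs, ∃ s, inL s = true ∧ inL c.1 = true ∧ dotIs n0 s c.2.1 c.2.2 = true ∧ g • vc s = vc c.1) :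
    condsB cs m = true := by
  unfold condsB
  rw [List.all_eq_true]
  intro c hc
  obtain ⟨s, hs, hcL, h1, h2⟩ := h c hc
  rw [dotIs_iff, ← hm, ← vc_val hcL, ← h2, smul_dot, vc_val h0, vc_val hs]
  exact dotIs_iff.1 h1

theorem step_level {l : ℕ} (hl : l < 6) {cs : List (ℕ × ℕ × ℕ)}
    (h1 : ∀ c ∈ cs, ∃ j ∈ List.range l, ∃ i ∈ List.range 4, c.1 = np j i) (h2 : condsB cs (np l 0) = true)
    {g : Co0} (hg : g ∈ St l) : ∃ m ∈ scan cs, (g • vc (np l 0)).1 = dec m := by
  obtain ⟨hK, hf⟩ := mem_St.1 hg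
  obtain ⟨m, hm, e⟩ := smul_Y hK (vc (np l 0)) (norm_np hl (by norm_num)) (dot_np hl (by norm_num))
  refine ⟨m, ?_, e⟩
  refine List.mem_filter.2 ⟨hm, ?_⟩
  rw [forceN_eq]
  refine conds_of (P_ok l (List.mem_range.2 hl) 0 (by simp)).2.2.1 e ?_
  intro c hc
  obtain ⟨j, hj, i, hi, e1⟩ := h1 c hc
  have hj' := List.mem_range.1 hj
  have hi' := List.mem_range.1 hi
  have hjl : j < 6 := by omega
  have hin : inL (np j i) = true := (P_ok j (List.mem_range.2 hjl) i hi).2.2.1
  refine ⟨c.1, by rw [e1]; exact hin, by rw [e1]; exact hin, ?_, ?_⟩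
  · have := List.all_eq_true.1 h2 c hc
    exact this
  · rw [e1]
    exact fix_np hK hjl (hf j hj') hi'

theorem finite_T (l : List ℕ) : {y : L | ∃ m ∈ l, y.1 = dec m}.Finite ∧ {y : L | ∃ m ∈ l, y.1 = dec m}.ncard ≤ l.length := by
  classical
  have hsub : {y : L | ∃ m ∈ l, y.1 = dec m} ⊆ ((l.toFinset.image vc : Finset L) : Set L) := by
    rintro y ⟨m, hm, e⟩
    simp only [Finset.coe_image, List.coe_toFinset, Set.mem_image, Set.mem_setOf_eq]
    exact ⟨m, hm, (eq_vc e).symm⟩
  refine ⟨(Finset.finite_toSet _).subset hsub, ?_⟩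
  calc _ ≤ ((l.toFinset.image vc : Finset L) : Set L).ncard := Set.ncard_le_ncard hsub (Finset.finite_toSet _)
    _ = (l.toFinset.image vc).card := Set.ncard_coe_finset _
    _ ≤ l.toFinset.card := Finset.card_image_le
    _ ≤ l.length := List.toFinset_card_le l

instance : Finite Co0 := Nat.finite_of_card_ne_zero (by rw [Cfsg.Agent.Lib.Leech.Order.card_Co0]; norm_num)

theorem card_step {G X : Type*} [Group G] [MulAction G X] [Finite G] (S : Subgroup G) (x : X) (T : Set X)
    (hT : T.Finite) (h : ∀ g ∈ S, g • x ∈ T) :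
    Nat.card S ≤ T.ncard * Nat.card ↥(S ⊓ MulAction.stabilizer G x) := by
  have h1 := Subgroup.card_mul_index (MulAction.stabilizer S x)
  rw [MulAction.index_stabilizer] at h1
  have h2 : (MulAction.orbit S x).ncard ≤ T.ncard := by
    apply Set.ncard_le_ncard _ hT
    rintro _ ⟨g, rfl⟩
    exact h g.1 g.2
  have h3 : Nat.card (MulAction.stabilizer S x) ≤ Nat.card ↥(S ⊓ MulAction.stabilizer G x) := by
    apply Nat.card_le_card_of_injective
      (fun g => (⟨g.1.1, g.1.2, g.2⟩ : ↥(S ⊓ MulAction.stabilizer G x)))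
    intro a b hab
    apply Subtype.ext
    apply Subtype.ext
    exact congrArg (fun y : ↥(S ⊓ MulAction.stabilizer G x) => y.1) hab
  rw [← h1, mul_comm]
  exact Nat.mul_le_mul h2 h3

theorem card_St_le {l : ℕ} {k : ℕ} (T : List ℕ) (hk : T.length = k) (h : ∀ g ∈ St l, ∃ m ∈ T, (g • vc (np l 0)).1 = dec m) :
    Nat.card (St l) ≤ k * Nat.card (St (l + 1)) := by
  have := finite_T T
  have h1 := card_step (St l) (vc (np l 0)) _ this.1 h
  calc _ ≤ _ := h1
    _ ≤ k * Nat.card (St (l + 1)) := by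
      apply Nat.mul_le_mul_right
      rw [← hk]
      exact this.2

theorem expandP (z : GolayPt → ℤ) {i : ℕ} (hi : i < 24) :
    ∑ l ∈ Finset.range 24, tab pT i l * dotInt z (dec (wN l)) = 248 * z (pt i) := by
  unfold dotInt
  simp only [sum_golay, Finset.mul_sum]
  rw [Finset.sum_comm]
  have h : ∀ q ∈ Finset.range 24, ∑ l ∈ Finset.range 24, tab pT i l * (z (pt q) * dec (wN l) (pt q)) =
      if i = q then 248 * z (pt q) else 0 := by
    intro q hq
    have hq' := Finset.mem_range.1 hq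
    have h1 := P_table i (List.mem_range.2 hi) q (List.mem_range.2 hq')
    rw [list_sum_range] at h1
    have h2 : ∑ l ∈ Finset.range 24, tab pT i l * (z (pt q) * dec (wN l) (pt q)) =
        z (pt q) * ∑ l ∈ Finset.range 24, tab pT i l * (((img (wN l) q : ℕ) : ℤ) - 16) := by
      rw [Finset.mul_sum]
      refine Finset.sum_congr rfl fun l _ => ?_
      rw [dec_pt _ hq']
      ring
    rw [h2, h1]
    split_ifs <;> ring
  rw [Finset.sum_congr rfl h, Finset.sum_ite_eq]
  simp [hi]

theorem eq_one_of_fix {g : Co0} (h : ∀ j < 6, ∀ i < 4, g • vc (np j i) = vc (np j i)) : g = 1 := by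
  apply ext_smul
  intro v
  rw [one_smul]
  apply Subtype.ext
  funext p
  have hz : ∀ l ∈ Finset.range 24, tab pT (idx p) l * dotInt ((g • v : L).1 - v.1) (dec (wN l)) = 0 := by
    intro l hl
    have hl' := Finset.mem_range.1 hl
    have hj : l / 4 < 6 := by omega
    have hi : l % 4 < 4 := by omega
    have h1 := h _ hj _ hi
    have h2 : dotInt (g • v : L).1 (dec (wN l)) = dotInt v.1 (dec (wN l)) := by
      unfold wN
      rw [← vc_val_np hj hi]
      nth_rw 1 [← h1]
      exact smul_dot g v _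
    rw [dotInt_sub_left, h2, sub_self, mul_zero]
  have h3 := expandP ((g • v : L).1 - v.1) (idx_lt p)
  rw [Finset.sum_eq_zero hz, pt_idx] at h3
  have h4 : ((g • v : L).1 - v.1) p = 0 := by
    have : (248 : ℤ) ≠ 0 := by norm_num
    exact (mul_eq_zero.1 h3.symm).resolve_left this
  simpa [sub_eq_zero] using h4

theorem St4_trivial {g : Co0} (hg : g ∈ St 4) : g = 1 := by
  obtain ⟨hK, hf⟩ := mem_St.1 hg
  have h4 : g • vc (np 4 0) = vc (np 4 0) := by
    obtain ⟨m, hm, e⟩ := step_level (l := 4) (by norm_num) c4_ok.1 c4_ok.2 hg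
    rw [s4] at hm
    rcases List.mem_cons.1 hm with rfl | hm
    · -- the alternative is excluded by the vector of number 5
      exfalso
      have e1 : g • vc (np 4 0) = vc (altN 0) := by
        rw [alt_eq]
        exact eq_vc e
      have hA : ∀ i, i < 4 → g • vc (np 4 i) = vc (altN i) := by
        intro i hi
        induction i with
        | zero => exact e1
        | succ i ih =>
          have h5 := a0_alt (i := i) hi
          rw [← a0_np (j := 4) (by norm_num) hi, comm_smul hK, ih (by omega), h5]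
      obtain ⟨m', hm', e'⟩ := smul_Y hK (vc (np 5 0)) (norm_np (by norm_num) (by norm_num)) (dot_np (by norm_num) (by norm_num))
      have hc : condsB cW m' = true := by
        refine conds_of (P_ok 5 (by simp) 0 (by simp)).2.2.1 e' ?_
        intro c hc
        rcases cW_ok c hc with ⟨j, hj, i, hi, e1, e2⟩ | ⟨i, hi, e1, e2⟩
        · have hj' := List.mem_range.1 hj
          have hi' := List.mem_range.1 hi
          have hin : inL (np j i) = true := (P_ok j (List.mem_range.2 (by omega)) i hi).2.2.1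
          refine ⟨c.1, by rw [e1]; exact hin, by rw [e1]; exact hin, e2, ?_⟩
          rw [e1]
          exact fix_np hK (by omega) (hf j hj') hi'
        · have hi' := List.mem_range.1 hi
          refine ⟨np 4 i, (P_ok 4 (by simp) i hi).2.2.1, ?_, e2, ?_⟩
          · rw [e1]
            exact (A_ok i hi).2.2
          · rw [e1]
            exact hA i hi'
      have : m' ∈ scan cW := List.mem_filter.2 ⟨hm', by rw [forceN_eq]; exact hc⟩
      rw [sW] at this
      simp at this
    · rcases List.mem_cons.1 hm with rfl | hm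
      · rw [← np4_eq] at e
        exact eq_vc e |>.trans rfl
      · simp at hm
  have hg5 : g ∈ St 5 := mem_St.2 ⟨hK, fun j hj => by
    rcases Nat.lt_succ_iff_lt_or_eq.1 hj with h | rfl
    · exact hf j h
    · exact h4⟩
  have h5 : g • vc (np 5 0) = vc (np 5 0) := by
    obtain ⟨m, hm, e⟩ := step_level (l := 5) (by norm_num) c5_ok.1 c5_ok.2 hg5
    rw [s5] at hm
    rcases List.mem_cons.1 hm with rfl | hm
    · rw [← np5_eq] at e
      exact eq_vc e
    · simp at hm
  apply eq_one_of_fix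
  intro j hj i hi
  refine fix_np hK hj ?_ hi
  by_cases hj4 : j < 4
  · exact hf j hj4
  · have : j = 4 ∨ j = 5 := by omega
    rcases this with rfl | rfl
    · exact h4
    · exact h5


theorem card_KK_le : Nat.card KK ≤ 6048000 := by
  have h0 : Nat.card (St 0) ≤ 37800 * Nat.card (St 1) := by
    refine card_St_le Yl Yl_len ?_
    intro g hg
    exact smul_Y hg _ (norm_np (by norm_num) (by norm_num)) (dot_np (by norm_num) (by norm_num))
  have h1 : Nat.card (St 1) ≤ 5 * Nat.card (St 2) :=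
    card_St_le _ s1 fun g hg => step_level (by norm_num) c1_ok.1 c1_ok.2 hg
  have h2 : Nat.card (St 2) ≤ 16 * Nat.card (St 3) :=
    card_St_le _ s2 fun g hg => step_level (by norm_num) c2_ok.1 c2_ok.2 hg
  have h3 : Nat.card (St 3) ≤ 2 * Nat.card (St 4) :=
    card_St_le _ s3 fun g hg => step_level (by norm_num) c3_ok.1 c3_ok.2 hg
  have h4 : Nat.card (St 4) = 1 := by
    have : St 4 = ⊥ := (Subgroup.eq_bot_iff_forall _).2 fun g hg => St4_trivial hg
    rw [this]
    simp
  rw [h4] at h3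
  have h5 : Nat.card KK = Nat.card (St 0) := rfl
  omega

end Cfsg.Agent.Lib.J2Leech

end
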