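import Cfsg.Agent.Lib.J2Leech.Scan

/-!
# The kernel computations
-/

set_option autoImplicit false
set_option maxRecDepth 100000

namespace Cfsg.Agent.Lib.J2Leech

open Cfsg Cfsg.Agent.Lib.J2Ico Cfsg.Agent.Lib.J2Ico.Q8

theorem chk_all : chkAll = true := by decide +kernel

theorem Yl_len : Yl.length = 37800 := by decide +kernel

theorem s1 : (scan c1).length = 5 := by decide +kernel

theorem s2 : (scan c2).length = 16 := by decide +kernel

theorem s3 : (scan c3).length = 2 := by decide +kernel

theorem s4 : scan c4 = [686053159037426471753302077614864912, 688568257056439358252051193651542544] := by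
  decide +kernel

theorem s5 : scan c5 = [600299049606435514806160138684613136] := by decide +kernel

theorem sW : scan cW = [] := by decide +kernel

end Cfsg.Agent.Lib.J2Leech
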