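import Cfsg.Agent.Lib.J2Ico.Centr
import Cfsg.Agent.Lib.Leech.C1iGp
import Cfsg.Agent.S0824

/-!
# The hypotheses on the centralizer of a reflection in the group `Hg` of degree 315
-/

set_option autoImplicit false
set_option linter.unusedSectionVars false
set_option linter.constructorNameAsVariable false

noncomputable section

namespace Cfsg.Agent.Lib.J2Leech.Hyp

open Cfsg.Spor Cfsg.Agent.Lib.PermComp Cfsg.Agent.Lib.J2Ico Cfsg.Agent.Lib.J2Ico.Cert
  Cfsg.Agent.Lib.J2Ico.CertQ Cfsg.Agent.Lib.J2Ico.Q8 Cfsg.Agent.Lib.PGroups.Special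
  Cfsg.Agent.Lib.Leech.C1iGp

/-- The involution. -/
abbrev zz : Hg := ⟨zh, rhoT_reflT_mem 281⟩

/-- Its centralizer. -/
abbrev CC : Subgroup Hg := Subgroup.centralizer ({zz} : Set Hg)

/-- The embedding of the centralizer in the symmetric group. -/
def KK : CC →* Equiv.Perm (Fin 315) := Hg.subtype.comp CC.subtype

theorem KK_inj : Function.Injective KK := fun _ _ h => Subtype.ext (Subtype.ext h)

theorem KK_centEquiv (c : CC) : ((centEquiv c : H1) : Equiv.Perm (Fin 315)) = KK c := rfl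

theorem exists_KK {x : Equiv.Perm (Fin 315)} (hx : x ∈ H1) : ∃ c : CC, KK c = x := by
  refine ⟨centEquiv.symm ⟨x, hx⟩, ?_⟩
  rw [← KK_centEquiv, MulEquiv.apply_symm_apply]

theorem comm_H1 {x : Equiv.Perm (Fin 315)} (hx : x ∈ H1) : x * zh = zh * x := by
  obtain ⟨c, rfl⟩ := exists_KK hx
  have h := (Subgroup.mem_centralizer_iff.1 c.2) zz (Set.mem_singleton _)
  have h2 := congrArg Subtype.val h
  exact h2.symm

theorem exists_phi1 : ∃ φ : H1 →* Equiv.Perm (Fin 5), φ.range = alternatingGroup (Fin 5) ∧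
    φ.ker.map H1.subtype = Qs := by
  obtain ⟨φ, h1, h2⟩ := exists_phi0
  have hc : Nat.card φ.ker = 32 := by
    have h3 := Subgroup.card_mul_index φ.ker
    rw [Subgroup.index_ker, h2, card_H5, card_H1] at h3
    omega
  have hle : Qs ≤ φ.ker.map H1.subtype := by
    intro g hg
    refine ⟨⟨g, Qs_le_H1 hg⟩, ?_, rfl⟩
    rw [SetLike.mem_coe, MonoidHom.mem_ker]
    exact (h1 ⟨g, Qs_le_H1 hg⟩).unique (fun i j hij => Induced.sep_of_sepOK rB_sep i j hij) (invR_Qs hg)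
  let f0 : φ.ker ≃* φ.ker.map H1.subtype := φ.ker.equivMapOfInjective H1.subtype Subtype.val_injective
  have heq : Qs = φ.ker.map H1.subtype := by
    apply Subgroup.eq_of_le_of_card_ge hle
    rw [← Nat.card_congr f0.toEquiv, hc, card_Qs]
  exact ⟨φ, h2.trans H5_eq, heq.symm⟩

theorem zh_center : (⟨zh, zh_mem⟩ : Qs) ∈ Subgroup.center Qs := by
  rw [Subgroup.mem_center_iff]
  intro x
  apply Subtype.ext
  exact (comm_H1 (Qs_le_H1 x.2))

theorem zh_sq : zh ^ 2 = 1 := by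
  have := Fact.mk Nat.prime_two
  have hL := extraLike_of_isExtraspecial extraspecial_Qs
  have h := hL.center_pow _ zh_center
  exact congrArg Subtype.val h

theorem conj_Qs {r q : Equiv.Perm (Fin 315)} (hr : r ∈ Qs) (hq : q ∈ Qs) :
    r * q * r⁻¹ = q ∨ r * q * r⁻¹ = zh * q := by
  have := Fact.mk Nat.prime_two
  have hL := extraLike_of_isExtraspecial extraspecial_Qs
  have hz1 : (⟨zh, zh_mem⟩ : Qs) ≠ 1 := fun h => zh_ne (congrArg Subtype.val h)
  obtain ⟨n, hn⟩ := hL.exists_pow_eq zh_center hz1 (hL.comm_mem ⟨r, hr⟩ ⟨q, hq⟩)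
  have hzq := hL.center_pow _ zh_center
  have hn' : r * q * r⁻¹ * q⁻¹ = zh ^ n := congrArg Subtype.val hn
  rcases Nat.even_or_odd' n with ⟨k, rfl | rfl⟩
  · left
    rw [pow_mul, zh_sq, one_pow] at hn'
    exact mul_inv_eq_one.mp hn'
  · right
    rw [pow_succ, pow_mul, zh_sq, one_pow, one_mul] at hn'
    exact mul_inv_eq_iff_eq_mul.mp hn'

/-- The codes. -/
def c₀ : ℕ := j2p_G_s1
def q₀ : ℕ := qc_T.getD 2 0
def g₀ : ℕ := j2p_G_T.getD 2 0
def t₀ : ℕ := qL.getD 2 0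

theorem valid_c₀ : Simple.validB j2p_n j2p_w j2p_mask j2p_idc c₀ = true := by decide +kernel
theorem valid_t₀ : Simple.validB j2p_n j2p_w j2p_mask j2p_idc t₀ = true := by decide +kernel
theorem mem_q₀ : q₀ ∈ qc_T := by decide +kernel
theorem mem_g₀ : g₀ ∈ j2p_G_T := by decide +kernel
theorem sift_t₀ : Core.sift j2p_n j2p_w j2p_mask j2p_L j2p_maskL j2p_idc qc_levels t₀ = true := by
  decide +kernel
theorem conj_t₀ : Core.comp j2p_n j2p_w j2p_mask g₀ zC = Core.comp j2p_n j2p_w j2p_mask t₀ g₀ := by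
  decide +kernel
theorem t₀_ne : Core.app j2p_w j2p_mask t₀ 0 ≠ Core.app j2p_w j2p_mask zC 0 := by decide +kernel
theorem pt1 : Core.app j2p_w j2p_mask (Core.comp j2p_n j2p_w j2p_mask c₀ q₀) 0 ≠
    Core.app j2p_w j2p_mask (Core.comp j2p_n j2p_w j2p_mask q₀ c₀) 0 := by decide +kernel
theorem pt2 : Core.app j2p_w j2p_mask (Core.comp j2p_n j2p_w j2p_mask c₀ q₀) 0 ≠
    Core.app j2p_w j2p_mask (Core.comp j2p_n j2p_w j2p_mask zC (Core.comp j2p_n j2p_w j2p_mask q₀ c₀)) 0 := by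
  decide +kernel
theorem mem_c₀ : c₀ ∈ j2p_G_lev1.gens := by
  rw [← Pq1]
  exact List.mem_map.2 ⟨(j2p_G_s1, t5c_T_0), by simp [Pq], rfl⟩

theorem card_A5 : Nat.card (alternatingGroup (Fin 5)) = 60 := by
  rw [← H5_eq]
  exact card_H5

theorem omega_equiv :
    Nonempty (↥(Cfsg.Omega (ZMod 2) (Cfsg.quadFormMinus 1 (ZMod 2) 1 1)) ≃* alternatingGroup (Fin 5)) := by
  obtain ⟨φ⟩ := Cfsg.Agent.S0824.result (F := ZMod 2) (by simp [ZMod.card])
  have h1 : (Cfsg.Omega (ZMod 2) (Cfsg.quadFormMinus 1 (ZMod 2) 1 1)).map φ.toMonoidHom = alternatingGroup (Fin 5) := by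
    rw [← alternatingGroup.commutator_perm_eq (by simp)]
    unfold Cfsg.Omega
    rw [commutator_def, commutator_def, Subgroup.map_commutator,
      Subgroup.map_top_of_surjective _ φ.surjective]
  exact ⟨(Subgroup.equivMapOfInjective _ φ.toMonoidHom φ.injective).trans (MulEquiv.subgroupCongr h1)⟩

theorem hg_hyp : ∃ z : Hg, orderOf z = 2 ∧
    ∃ (Q : Subgroup (Subgroup.centralizer ({z} : Set Hg))) (_ : Q.Normal),
      Cfsg.generalizedFittingSubgroup (Subgroup.centralizer ({z} : Set Hg)) = Q ∧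
      Cfsg.IsExtraspecial 2 Q ∧ Nat.card Q = 2 ^ 5 ∧
      Nonempty ((Subgroup.centralizer ({z} : Set Hg)) ⧸ Q ≃*
        Cfsg.Omega (ZMod 2) (Cfsg.quadFormMinus 1 (ZMod 2) 1 1)) ∧
      ∃ g : Hg, (∃ hq : g * z * g⁻¹ ∈ Subgroup.centralizer ({z} : Set Hg),
        (⟨g * z * g⁻¹, hq⟩ : Subgroup.centralizer ({z} : Set Hg)) ∈ Q) ∧ g * z * g⁻¹ ≠ z := by
  have h2prime := Fact.mk Nat.prime_two
  refine ⟨zz, ?_, ?_⟩
  · apply orderOf_eq_prime
    · exact Subtype.ext zh_sq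
    · exact fun h => zh_ne (congrArg Subtype.val h)
  obtain ⟨φ₀, hr₀, hk₀⟩ := exists_phi1
  let φ : CC →* Equiv.Perm (Fin 5) := φ₀.comp centEquiv.toMonoidHom
  have hrange : φ.range = alternatingGroup (Fin 5) := by
    rw [MonoidHom.range_comp, MonoidHom.range_eq_top.2 centEquiv.surjective, ← MonoidHom.range_eq_map]
    exact hr₀
  have hQmem : ∀ c : CC, c ∈ φ.ker ↔ KK c ∈ Qs := by
    intro c
    rw [← hk₀]
    constructor
    · intro h
      exact ⟨centEquiv c, h, rfl⟩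
    · rintro ⟨a, ha, hac⟩
      have h1 : a = centEquiv c := Subtype.ext hac
      rw [MonoidHom.mem_ker]
      change φ₀ (centEquiv c) = 1
      rw [← h1]
      exact ha
  have hmap : φ.ker.map KK = Qs := by
    ext x
    constructor
    · rintro ⟨c, hc, rfl⟩
      exact (hQmem c).1 hc
    · intro hx
      obtain ⟨c, rfl⟩ := exists_KK (Qs_le_H1 hx)
      exact ⟨c, (hQmem c).2 hx, rfl⟩
  let f : φ.ker ≃* Qs := (φ.ker.equivMapOfInjective KK KK_inj).trans (MulEquiv.subgroupCongr hmap)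
  have hcardQ : Nat.card φ.ker = 32 := by
    rw [Nat.card_congr f.toEquiv, card_Qs]
  let eq5 : (CC ⧸ φ.ker) ≃* alternatingGroup (Fin 5) :=
    (QuotientGroup.quotientKerEquivRange φ).trans (MulEquiv.subgroupCongr hrange)
  have hs : IsSimpleGroup (CC ⧸ φ.ker) := eq5.isSimpleGroup
  have hns : ¬ IsPGroup 2 (CC ⧸ φ.ker) := by
    intro h
    obtain ⟨n, hn⟩ := IsPGroup.iff_card.1 h
    rw [Nat.card_congr eq5.toEquiv, card_A5] at hn
    have h3 : 3 ∣ 2 ^ n := by rw [← hn]; norm_num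
    have := Nat.Prime.dvd_of_dvd_pow Nat.prime_three h3
    omega
  have hp : IsPGroup 2 φ.ker := by
    apply IsPGroup.of_card (n := 5)
    rw [hcardQ]
    norm_num
  -- the elements
  obtain ⟨gc, hgc⟩ := Simple.exists_rep_of_valid (e := e315) hm9 hid9 valid_c₀
  have hgcH1 : gc ∈ H1 := Core.H_of_rep mem_c₀ hgc
  obtain ⟨gq, hgq⟩ := rep_qc q₀ mem_q₀
  have hgqQ : gq ∈ Qs := Core.H_of_rep mem_q₀ hgq
  obtain ⟨c, hc⟩ := exists_KK hgcH1
  obtain ⟨q, hq⟩ := exists_KK (Qs_le_H1 hgqQ)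
  have hcent : Subgroup.centralizer ((φ.ker : Subgroup CC) : Set CC) ≤ φ.ker := by
    refine centralizer_le_of_simple_quot φ.ker hs c q ((hQmem q).2 (hq ▸ hgqQ)) ?_
    intro r hr h0
    have hr' := (hQmem r).1 hr
    have h1 := congrArg KK h0
    simp only [map_mul, map_inv, hc, hq] at h1
    have hcomp1 := hgc.comp hm9 hgq
    have hcomp2 := hgq.comp hm9 hgc
    have hzr := rep_zC
    have hcomp3 := hzr.comp hm9 hcomp2
    rcases conj_Qs hr' hgqQ with h3 | h3
    · rw [h3] at h1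
      have h4 : gc * gq = gq * gc := by
        rw [mul_inv_eq_iff_eq_mul] at h1
        exact h1
      apply pt1
      have e1 := hcomp1 (0 : Fin 315)
      have e2 := hcomp2 (0 : Fin 315)
      rw [h4] at e1
      exact e1.trans e2.symm
    · rw [h3] at h1
      have h4 : gc * gq = zh * (gq * gc) := by
        rw [mul_inv_eq_iff_eq_mul] at h1
        rw [h1, mul_assoc]
      apply pt2
      have e1 := hcomp1 (0 : Fin 315)
      have e2 := hcomp3 (0 : Fin 315)
      rw [h4] at e1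
      exact e1.trans e2.symm
  refine ⟨φ.ker, inferInstance, ?_, ?_, ?_, ?_, ?_⟩
  · exact gfit_of_simple_quot φ.ker hp hs hns hcent
  · exact extraspecial_congr f.symm extraspecial_Qs
  · rw [hcardQ]
    norm_num
  · obtain ⟨e2⟩ := omega_equiv
    exact ⟨eq5.trans e2.symm⟩
  · -- not weakly closed
    obtain ⟨gg, hgg⟩ := hT g₀ mem_g₀
    have hggHg : gg ∈ Hg := Core.H_of_rep mem_g₀ hgg
    obtain ⟨gt, hgt⟩ := Simple.exists_rep_of_valid (e := e315) hm9 hid9 valid_t₀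
    have hgtQ : gt ∈ Qs := by
      have h := Core.sift_sound_of_sem (e := e315) hm9 hid9 qc_levels qc_facts.2.2.2.1 t₀ gt hgt sift_t₀
      rw [← qc_facts.2.2.2.2.1] at h
      exact h
    have hconj : gg * zh * gg⁻¹ = gt := by
      rw [mul_inv_eq_iff_eq_mul]
      have r1 := hgg.comp hm9 rep_zC
      have r2 := hgt.comp hm9 hgg
      rw [conj_t₀] at r1
      exact r1.unique r2
    have hgtne : gt ≠ zh := by
      intro h0
      apply t₀_ne
      have r1 := hgt (0 : Fin 315)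
      have r2 := rep_zC (0 : Fin 315)
      rw [h0] at r1
      exact r1.trans r2.symm
    obtain ⟨t, ht⟩ := exists_KK (Qs_le_H1 hgtQ)
    have hval : ((⟨gg, hggHg⟩ : Hg) * zz * (⟨gg, hggHg⟩ : Hg)⁻¹) = (t : Hg) := by
      apply Subtype.ext
      exact hconj.trans ht.symm
    refine ⟨⟨gg, hggHg⟩, ⟨?_, ?_⟩, ?_⟩
    · rw [hval]
      exact t.2
    · rw [hQmem]
      change gg * zh * gg⁻¹ ∈ Qs
      rw [hconj]
      exact hgtQ
    · intro h0
      apply hgtne
      rw [← hconj]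
      exact congrArg Subtype.val h0

end Cfsg.Agent.Lib.J2Leech.Hyp

end
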