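import Cfsg.Agent.Lib.J2Leech.Chain
import Cfsg.Agent.Lib.Leech.Center

/-!
# The centralizer of the element of order five, modulo its central part, is the Hall-Janko group
-/

set_option autoImplicit false
set_option maxRecDepth 100000
set_option linter.unusedSectionVars false

noncomputable section

namespace Cfsg.Agent.Lib.J2Leech

open Cfsg Cfsg.Spor Quaternion Cfsg.Agent.Lib.J2Ico Cfsg.Agent.Lib.J2Ico.Q8
open Cfsg.Agent.Lib.Golay.Core Cfsg.Agent.Lib.Leech.Lat Cfsg.Agent.Lib.Leech.Center

/-- The subgroup of order five. -/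
def A0 : Subgroup Co0 := Subgroup.zpowers a0

theorem card_A0 : Nat.card A0 = 5 := by
  rw [A0, Nat.card_zpowers, orderOf_a0]

/-- The centralizer of the subgroup. -/
abbrev K0 : Subgroup Co0 := Subgroup.centralizer (A0 : Set Co0)

theorem mem_K0 {g : Co0} : g ∈ K0 ↔ g ∈ KK := by
  rw [mem_KK, Subgroup.mem_centralizer_iff]
  constructor
  · intro h
    exact h a0 (Subgroup.mem_zpowers a0)
  · rintro h _ ⟨k, rfl⟩
    have : Commute a0 g := h
    exact (this.zpow_left k).eq

theorem iota_mem (t : twoJ2) : iota t ∈ K0 := by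
  rw [mem_K0, mem_KK]
  apply ext_smul
  intro v
  obtain ⟨x, rfl⟩ := psiL_surjective v
  rw [mul_smul, mul_smul, iota_psiL, a0_psiL, a0_psiL, iota_psiL]
  congr 1
  exact (linG_smul (twoJ2_le_linG t.2) (E uQ) cU_mem x).symm

/-- The part of the centralizer which is central. -/
abbrev Z0 : Subgroup Co0 := A0 ⊔ Subgroup.center Co0

theorem Z0_comm {z g : Co0} (hz : z ∈ Z0) (hg : g ∈ K0) : z * g = g * z := by
  have hle : Z0 ≤ Subgroup.centralizer (K0 : Set Co0) := by
    refine sup_le ?_ ?_
    · intro y hy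
      rw [Subgroup.mem_centralizer_iff]
      intro h hh
      exact (Subgroup.mem_centralizer_iff.1 hh y hy).symm
    · intro y hy
      rw [Subgroup.mem_centralizer_iff]
      intro h _
      exact (Subgroup.mem_center_iff.1 hy h)
  exact (Subgroup.mem_centralizer_iff.1 (hle hz) g hg).symm

instance normal_Z0 : (Z0.subgroupOf K0).Normal := by
  constructor
  intro n hn g
  rw [Subgroup.mem_subgroupOf] at hn ⊢
  have h1 : (n : Co0) * g = g * n := Z0_comm hn g.2
  have h2 : ((g * n * g⁻¹ : K0) : Co0) = n := by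
    show (g : Co0) * n * (g : Co0)⁻¹ = n
    rw [← h1, mul_inv_cancel_right]
  rw [h2]
  exact hn

/-- The map from the reflection group to the centralizer. -/
def phi : twoJ2 →* K0 := iota.codRestrict K0 iota_mem

theorem phi_coe (t : twoJ2) : ((phi t : K0) : Co0) = iota t := rfl

theorem center_iff (t : twoJ2) : t ∈ Subgroup.center twoJ2 ↔ t = 1 ∨ t = negT := by
  rw [center_eq_ker, mem_ker_iff]

theorem iota_negT : iota negT = negG := by
  apply ext_smul
  intro v
  obtain ⟨x, rfl⟩ := psiL_surjective v
  rw [iota_psiL, negG_smul']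
  have h : negT.1 x = negV x := Subtype.ext (funext fun t => negL_coe x t)
  rw [h, psiL_neg]

theorem mem_A_iota {t : twoJ2} (h : iota t ∈ A0) : t = 1 := by
  have hc : t ∈ Subgroup.center twoJ2 := by
    rw [Subgroup.mem_center_iff]
    intro s
    apply iota_injective
    rw [map_mul, map_mul]
    have := Subgroup.mem_centralizer_iff.1 (iota_mem s) (iota t) h
    exact this.symm
  rcases (center_iff t).1 hc with rfl | rfl
  · rfl
  · exfalso
    rw [iota_negT] at h
    have h1 : negG ^ 5 = 1 := by
      have h2 : orderOf a0 = 5 := orderOf_a0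
      obtain ⟨k, hk⟩ := h
      rw [← hk, ← zpow_natCast, ← zpow_mul, mul_comm, zpow_mul]
      simp only [Nat.cast_ofNat]
      have h3 : a0 ^ (5 : ℤ) = 1 := by
        rw [show (5 : ℤ) = ((5 : ℕ) : ℤ) by norm_num, zpow_natCast, a0_pow5]
      rw [h3, one_zpow]
    have h2 : negG * negG = 1 := by
      apply ext_smul
      intro v
      rw [mul_smul, negG_smul', negG_smul', neg_neg, one_smul]
    have h3 : negG ^ 5 = negG := by
      calc negG ^ 5 = (negG * negG) * (negG * negG) * negG := by simp only [pow_succ, pow_zero, one_mul, mul_assoc]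
        _ = negG := by rw [h2]; simp
    rw [h3] at h1
    exact negG_ne_one h1

theorem A0_le_K0 {a : Co0} (ha : a ∈ A0) : a ∈ K0 := by
  rw [Subgroup.mem_centralizer_iff]
  intro h hh
  obtain ⟨k, rfl⟩ := hh
  obtain ⟨l, rfl⟩ := ha
  exact (Commute.refl a0).zpow_zpow k l

/-- The product map. -/
def prodMap : A0 × twoJ2 → K0 := fun p => ⟨(p.1 : Co0) * iota p.2, K0.mul_mem (A0_le_K0 p.1.2) (iota_mem p.2)⟩

theorem prodMap_injective : Function.Injective prodMap := by
  rintro ⟨a, s⟩ ⟨b, t⟩ h
  have h1 : (a : Co0) * iota s = b * iota t := congrArg Subtype.val h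
  have h2 : iota (s * t⁻¹) = (a : Co0)⁻¹ * b := by
    rw [map_mul, map_inv]
    have : iota s = (a : Co0)⁻¹ * (b * iota t) := by rw [← h1]; group
    rw [this]
    group
  have h3 : iota (s * t⁻¹) ∈ A0 := by
    rw [h2]
    exact A0.mul_mem (A0.inv_mem a.2) b.2
  have h4 := mem_A_iota h3
  have h5 : s = t := by
    have : s * t⁻¹ * t = t := by rw [h4, one_mul]
    simpa using this
  subst h5
  have h6 : (a : Co0) = b := mul_right_cancel h1
  exact Prod.ext (Subtype.ext h6) rfl

theorem card_K0 : Nat.card K0 = 6048000 := by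
  have h1 : Nat.card K0 ≤ 6048000 := by
    have : K0 = KK := by
      ext g
      exact mem_K0
    rw [this]
    exact card_KK_le
  have : Finite (A0 × twoJ2) := by
    have h0 : Finite twoJ2 := Nat.finite_of_card_ne_zero (by rw [card_twoJ2]; norm_num)
    have h0' : Finite A0 := Nat.finite_of_card_ne_zero (by rw [card_A0]; norm_num)
    infer_instance
  have h2 : Nat.card (A0 × twoJ2) = 6048000 := by
    rw [Nat.card_prod, card_A0, card_twoJ2]
  have h3 := Nat.card_le_card_of_injective prodMap prodMap_injective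
  omega

theorem prodMap_surjective : Function.Surjective prodMap := by
  have : Finite (A0 × twoJ2) := by
    have h0 : Finite twoJ2 := Nat.finite_of_card_ne_zero (by rw [card_twoJ2]; norm_num)
    have h0' : Finite A0 := Nat.finite_of_card_ne_zero (by rw [card_A0]; norm_num)
    infer_instance
  have : Finite K0 := Nat.finite_of_card_ne_zero (by rw [card_K0]; norm_num)
  have h2 : Nat.card (A0 × twoJ2) = Nat.card K0 := by
    rw [Nat.card_prod, card_A0, card_twoJ2, card_K0]
  exact (Function.Injective.bijective_of_nat_card_le prodMap_injective h2.ge).2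

/-- The map to the quotient. -/
def piQ : twoJ2 →* K0 ⧸ Z0.subgroupOf K0 :=
  (QuotientGroup.mk' (Z0.subgroupOf K0)).comp phi

theorem piQ_surjective : Function.Surjective piQ := by
  intro y
  obtain ⟨k, rfl⟩ := QuotientGroup.mk'_surjective _ y
  obtain ⟨⟨a, t⟩, rfl⟩ := prodMap_surjective k
  refine ⟨t, ?_⟩
  show (QuotientGroup.mk (phi t) : K0 ⧸ Z0.subgroupOf K0) = QuotientGroup.mk (prodMap (a, t))
  rw [QuotientGroup.eq, Subgroup.mem_subgroupOf]
  have hcomm : (a : Co0) * iota t = iota t * a := Z0_comm (Subgroup.mem_sup_left a.2) (iota_mem t)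
  show (iota t)⁻¹ * ((a : Co0) * iota t) ∈ Z0
  rw [hcomm, inv_mul_cancel_left]
  exact Subgroup.mem_sup_left a.2

theorem ker_piQ : Subgroup.center twoJ2 = piQ.ker := by
  ext t
  rw [MonoidHom.mem_ker]
  show _ ↔ QuotientGroup.mk' _ (phi t) = 1
  rw [QuotientGroup.mk'_apply, QuotientGroup.eq_one_iff, Subgroup.mem_subgroupOf]
  rw [phi_coe]
  constructor
  · intro h
    rcases (center_iff t).1 h with rfl | rfl
    · rw [map_one]
      exact Z0.one_mem
    · rw [iota_negT]
      exact Subgroup.mem_sup_right negG_mem_center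
  · intro h
    rw [Subgroup.mem_center_iff]
    intro s
    apply iota_injective
    rw [map_mul, map_mul]
    exact (Z0_comm h (iota_mem s)).symm

/-- The quotient is the Hall-Janko group. -/
def quoEquiv : J2 ≃* K0 ⧸ Z0.subgroupOf K0 :=
  (QuotientGroup.quotientMulEquivOfEq ker_piQ).trans
    (QuotientGroup.quotientKerEquivOfSurjective piQ piQ_surjective)

end Cfsg.Agent.Lib.J2Leech

end
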