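import Cfsg.Agent.Lib.J2Leech.Act
import Cfsg.Agent.Lib.J2Leech.YData
import Cfsg.Agent.Lib.J2Leech.Tab
import Cfsg.Agent.Lib.Leech.Cert

/-!
# The kernel computations on the minimal vectors

All coordinates of a vector are packed in one number, and all computations are made with natural
numbers modulo `2 ^ 122`.
-/

set_option autoImplicit false
set_option maxRecDepth 100000

namespace Cfsg.Agent.Lib.J2Leech

open Cfsg Cfsg.Agent.Lib.J2Ico Cfsg.Agent.Lib.J2Ico.Q8
open Cfsg.Agent.Lib.Golay.Perm Cfsg.Agent.Lib.Leech.Cert Cfsg.Agent.Lib.Leech.Vec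

/-- The numbers of a row. -/
def unpack : Nat → Nat → List Nat
  | 0, _ => []
  | k + 1, r => forceN (Nat.shiftRight r 120) fun r' =>
      Nat.land r 1329227995784915872903807060280344575 :: unpack k r'

/-- The list of the packed vectors. -/
def Yl : List Nat := Yrow.flatMap (unpack 315)

/-- The vector with coordinates `v` has the packed image `n`. -/
def okPk (v : V3) (n : Nat) : Bool :=
  (List.range 24).all fun i => decide (Tt v i = 2 * (((img n i : Nat) : Int) - 16))

/-- Parallel check of two lists. -/
def chkL {α β : Type} (f : α → β → Bool) (A : List α) : List β → Bool :=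
  List.rec (motive := fun _ => List β → Bool) (fun _ => true)
    (fun a _ ih B => List.casesOn B false fun b bs => and (f a b) (ih bs)) A

theorem chkL_cons {α β : Type} (f : α → β → Bool) (a : α) (A : List α) (b : β) (B : List β) :
    chkL f (a :: A) (b :: B) = (f a b && chkL f A B) := rfl

theorem chkL_sound {α β : Type} {f : α → β → Bool} {A : List α} {B : List β} (h : chkL f A B = true)
    {a : α} (ha : a ∈ A) : ∃ b ∈ B, f a b = true := by
  induction A generalizing B with
  | nil => simp at ha
  | cons x xs ih =>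
    cases B with
    | nil => exact absurd h (by simp [chkL])
    | cons y ys =>
      rw [chkL_cons, Bool.and_eq_true] at h
      rcases List.mem_cons.1 ha with rfl | hx
      · exact ⟨y, by simp, h.1⟩
      · obtain ⟨b, hb, hf⟩ := ih h.2 hx
        exact ⟨b, List.mem_cons_of_mem _ hb, hf⟩

/-! ### The packed form of a triple -/

/-- All coordinates of a triple in one number. -/
def pk (v : V3) : ℤ := ∑ i ∈ Finset.range 24, Tt v i * 32 ^ i

/-- The offset of packed vectors. -/
def off : ℤ := 686053159114795289240674611757597200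

/-- The coordinates of a quaternion. -/
def cfl (x : Q8) : List ℤ := [x.a0, x.b0, x.a1, x.b1, x.a2, x.b2, x.a3, x.b3]

/-- Scalar product of lists. -/
def dotL : List ℤ → List ℤ → ℤ
  | a :: as, b :: bs => a * b + dotL as bs
  | _, _ => 0

theorem dotL_append {A B C D : List ℤ} (h : A.length = C.length) :
    dotL (A ++ B) (C ++ D) = dotL A C + dotL B D := by
  induction A generalizing C with
  | nil =>
    cases C with
    | nil => simp [dotL]
    | cons c C => simp at h
  | cons a A ih =>
    cases C with
    | nil => simp at h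
    | cons c C =>
      simp only [List.cons_append, dotL]
      rw [ih (by simpa using h)]
      ring

/-- The linear form of block 0. -/
def G0 : List ℤ := [-1154047438874510369, -1156299238688195615, 1154047438872345569, 1154047438870248481, -1151795639058727903, -1151795639058791391, -1151795639060757535, -3457638579554974751]

/-- The linear form of block 1. -/
def G1 : List ℤ := [-1267690494817206237487823847424, -1267690494890993213782594945024, -1267690494743347201399857348608, 1267533334460656265326367866880, 1267688076965494878067669073920, 1267690494817134036957274308608, -1267688076891779961565824942080, -1267688076891707906170810269696]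

/-- The linear form of block 2. -/
def G2 : List ℤ := [-42877054754179887217257236536492032, 40199692506497276268470154932781056, 40199697458332991273717171000180736, 40280827096745236772171525182717952, 40280827096674401274928478357028864, 37684757895569501725000823736369152, 42795925115687361488594096237838336, 42795925115611803624868184061902848]

theorem pk_eq (v : V3) : pk v = dotL (cfl v.1) G0 + dotL (cfl v.2.1) G1 + dotL (cfl v.2.2) G2 := by
  simp only [pk, Finset.sum_range_succ, Finset.range_zero, Finset.sum_empty, Tt_0, Tt_1, Tt_2, Tt_3, Tt_4, Tt_5, Tt_6, Tt_7, Tt_8, Tt_9, Tt_10, Tt_11, Tt_12, Tt_13, Tt_14, Tt_15, Tt_16, Tt_17, Tt_18, Tt_19, Tt_20, Tt_21, Tt_22, Tt_23, tp, mR, mT, dotL, cfl, G0, G1, G2]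
  ring

/-- The basis of the quaternions. -/
def eQs : List Q8 := [⟨1,0,0,0,0,0,0,0⟩, ⟨0,1,0,0,0,0,0,0⟩, ⟨0,0,1,0,0,0,0,0⟩, ⟨0,0,0,1,0,0,0,0⟩,
  ⟨0,0,0,0,1,0,0,0⟩, ⟨0,0,0,0,0,1,0,0⟩, ⟨0,0,0,0,0,0,1,0⟩, ⟨0,0,0,0,0,0,0,1⟩]

/-- The bilinear form `(u, x) ↦ G (u x)`, on the basis. -/
def Bz (G : List ℤ) : List (List ℤ) := eQs.map fun e => eQs.map fun e' => dotL (cfl (mul e' e)) G

theorem dot_block (u x : Q8) (g0 g1 g2 g3 g4 g5 g6 g7 : ℤ) :
    dotL (cfl x) ((Bz [g0, g1, g2, g3, g4, g5, g6, g7]).map fun c => dotL (cfl u) c) =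
      dotL (cfl (mul u x)) [g0, g1, g2, g3, g4, g5, g6, g7] := by
  simp only [Bz, eQs, List.map, dotL, cfl, mul, mR, mT]
  ring

theorem dot_block' (u x : Q8) (G : List ℤ) (hG : G.length = 8) :
    dotL (cfl x) ((Bz G).map fun c => dotL (cfl u) c) = dotL (cfl (mul u x)) G :=
  match G, hG with
  | [_, _, _, _, _, _, _, _], _ => dot_block _ _ _ _ _ _ _ _ _ _

/-- The bilinear form of a triple, on the basis. -/
def BzA : List (List ℤ) := Bz G0 ++ Bz G1 ++ Bz G2

/-- The triple of products without the division by two. -/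
def M3 (u : Q8) (v : V3) : V3 := (mul u v.1, mul u v.2.1, mul u v.2.2)

theorem dot_all (u : Q8) (w : V3) :
    dotL (cfl w.1 ++ cfl w.2.1 ++ cfl w.2.2) (BzA.map fun c => dotL (cfl u) c) = pk (M3 u w) := by
  rw [pk_eq, BzA, List.map_append, List.map_append]
  rw [dotL_append (by simp [cfl, Bz, eQs]), dotL_append (by simp [cfl, Bz, eQs])]
  rw [dot_block' _ _ _ rfl, dot_block' _ _ _ rfl, dot_block' _ _ _ rfl]
  rfl

theorem pk_M3 {u : Q8} {v : V3} (hu : inI u) (hv : allI v) : pk (M3 u v) = 2 * pk (m3 u v) := by
  have h : ∀ i, Tt (M3 u v) i = 2 * Tt (m3 u v) i := by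
    intro i
    have h1 : M3 u v = (smul 2 (mulI u v.1), smul 2 (mulI u v.2.1), smul 2 (mulI u v.2.2)) := by
      unfold M3
      exact Prod.ext (mul_of_inI hu hv.1).2 (Prod.ext (mul_of_inI hu hv.2.1).2 (mul_of_inI hu hv.2.2).2)
    rw [h1]
    unfold Tt
    rcases (fr i).1 with _ | _ | j <;> simp only [blk, m3, tp_smul_left]
  simp only [pk, h, Finset.mul_sum]
  apply Finset.sum_congr rfl
  intro i _
  ring

/-! ### Natural numbers modulo `2 ^ 122` -/

/-- The modulus. -/
abbrev MM : ℕ := 5316911983139663491615228241121378304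

/-- The residue of an integer. -/
def conv (z : ℤ) : ℕ := (z % (MM : ℤ)).toNat

theorem conv_cast (z : ℤ) : ((conv z : ℕ) : ZMod MM) = (z : ZMod MM) := by
  have h1 : (0 : ℤ) ≤ z % (MM : ℤ) := Int.emod_nonneg _ (by norm_num)
  have h2 : ((conv z : ℕ) : ℤ) = z % (MM : ℤ) := Int.toNat_of_nonneg h1
  have h3 : ((conv z : ℕ) : ZMod MM) = (((conv z : ℕ) : ℤ) : ZMod MM) := by push_cast; rfl
  rw [h3, h2, ZMod.intCast_mod]

theorem land_cast (x : ℕ) : ((Nat.land x 5316911983139663491615228241121378303 : ℕ) : ZMod MM) = (x : ZMod MM) := by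
  have h : Nat.land x 5316911983139663491615228241121378303 = x % MM := by
    have := Nat.and_two_pow_sub_one_eq_mod x 122
    simpa using this
  rw [h, ZMod.natCast_mod]

/-- Scalar product of natural numbers. -/
def dotN (A : List ℕ) : List ℕ → ℕ → ℕ :=
  List.rec (motive := fun _ => List ℕ → ℕ → ℕ) (fun _ acc => acc)
    (fun a _ ih B acc => List.casesOn B acc fun b bs => ih bs (Nat.add acc (Nat.mul a b))) A

/-- An integer and a residue. -/
def Rel (x : ℕ) (z : ℤ) : Prop := (x : ZMod MM) = (z : ZMod MM)

theorem dotN_rel {A : List ℕ} {as : List ℤ} (h1 : List.Forall₂ Rel A as) :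
    ∀ {B : List ℕ} {bs : List ℤ}, List.Forall₂ Rel B bs → ∀ acc : ℕ,
      ((dotN A B acc : ℕ) : ZMod MM) = (acc : ZMod MM) + ((dotL as bs : ℤ) : ZMod MM) := by
  induction h1 with
  | nil =>
    intro B bs _ acc
    simp [dotN, dotL]
  | @cons a z l l' ha _ ih =>
    intro B bs h2 acc
    cases h2 with
    | nil => simp [dotN, dotL]
    | @cons b y m m' hb h3 =>
      have e := ih h3 (Nat.add acc (Nat.mul a b))
      refine Eq.trans e ?_
      unfold Rel at ha hb
      simp only [dotL, Int.cast_add, Int.cast_mul, Nat.add_eq, Nat.mul_eq, Nat.cast_add, Nat.cast_mul, ha, hb]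
      ring

theorem rel_map (as : List ℤ) : List.Forall₂ Rel (as.map conv) as := by
  induction as with
  | nil => exact List.Forall₂.nil
  | cons a as ih => exact List.Forall₂.cons (conv_cast a) ih

/-- The residues of the bilinear form. -/
def Bt : List (List ℕ) := BzA.map (List.map conv)

/-- The form of a unit on the basis. -/
def rowN (B : List (List ℕ)) (U : List ℕ) : List ℕ := B.map fun c => Nat.land (dotN U c 0) 5316911983139663491615228241121378303

theorem rowN_rel (U : List ℕ) (as : List ℤ) (hU : List.Forall₂ Rel U as) (cols : List (List ℤ)) :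
    List.Forall₂ Rel (rowN (cols.map (List.map conv)) U) (cols.map fun c => dotL as c) := by
  induction cols with
  | nil => exact List.Forall₂.nil
  | cons c cols ih =>
    refine List.Forall₂.cons ?_ ih
    unfold Rel
    rw [land_cast, dotN_rel hU (rel_map c) 0]
    simp

/-- The coordinates of a unit, as residues. -/
def cfN (x : Q8) : List ℕ := (cfl x).map conv

/-- The coordinates of a triple, as residues. -/
def cv3 (v : V3) : List ℕ := (cfl v.1 ++ cfl v.2.1 ++ cfl v.2.2).map conv

/-- The check of one vector. -/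
def okN (D X : List ℕ) (n : ℕ) : Bool :=
  and (Nat.ble n 1329227995784915872903807060280344575) (Nat.beq (Nat.land (dotN X D 2744212636459181156962698447030388800) 5316911983139663491615228241121378303) (Nat.mul 4 n))

/-- Evaluate a list first. -/
def forceNL {α : Type} (l : List ℕ) : (List ℕ → α) → α :=
  List.rec (motive := fun _ => (List ℕ → α) → α) (fun f => f [])
    (fun a _ ih f => forceN a fun a' => ih fun as' => f (a' :: as')) l

theorem forceNL_eq {α : Type} (l : List ℕ) (f : List ℕ → α) : forceNL l f = f l := by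
  induction l generalizing f with
  | nil => rfl
  | cons a as ih =>
    show forceN a (fun a' => forceNL as fun as' => f (a' :: as')) = _
    rw [forceN_eq, ih]

/-- Evaluate a list of lists first. -/
def forceLL {α : Type} (l : List (List ℕ)) : (List (List ℕ) → α) → α :=
  List.rec (motive := fun _ => (List (List ℕ) → α) → α) (fun f => f [])
    (fun a _ ih f => forceNL a fun a' => ih fun as' => f (a' :: as')) l

theorem forceLL_eq {α : Type} (l : List (List ℕ)) (f : List (List ℕ) → α) : forceLL l f = f l := by
  induction l generalizing f with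
  | nil => rfl
  | cons a as ih =>
    show forceNL a (fun a' => forceLL as fun as' => f (a' :: as')) = _
    rw [forceNL_eq, ih]

/-- One row of units. -/
def chkRow (B R : List (List ℕ)) (U : List ℕ) (r : ℕ) : Bool :=
  forceNL (rowN B U) fun D => chkL (okN D) R (unpack 315 r)

/-- The whole check. -/
def chkAll : Bool :=
  forceLL Bt fun B => forceLL (reps.map cv3) fun R => forceLL (units.map cfN) fun U =>
    chkL (chkRow B R) U Yrow

theorem chk_sound (hc : chkAll = true) {u : Q8} (hu : u ∈ units) {w : V3} (hw : w ∈ reps) :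
    ∃ n ∈ Yl, n ≤ 1329227995784915872903807060280344575 ∧ ((pk (M3 u w) : ℤ) : ZMod MM) + ((2744212636459181156962698447030388800 : ℕ) : ZMod MM) = ((4 * n : ℕ) : ZMod MM) := by
  unfold chkAll at hc
  rw [forceLL_eq, forceLL_eq, forceLL_eq] at hc
  obtain ⟨r, hr, h1⟩ := chkL_sound hc (List.mem_map.2 ⟨u, hu, rfl⟩)
  unfold chkRow at h1
  rw [forceNL_eq] at h1
  obtain ⟨n, hn, h2⟩ := chkL_sound h1 (List.mem_map.2 ⟨w, hw, rfl⟩)
  unfold okN at h2
  rw [Bool.and_eq_true] at h2
  refine ⟨n, List.mem_flatMap.2 ⟨r, hr, hn⟩, Nat.le_of_ble_eq_true h2.1, ?_⟩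
  have h3 : Nat.land (dotN (cv3 w) (rowN Bt (cfN u)) 2744212636459181156962698447030388800) 5316911983139663491615228241121378303 = Nat.mul 4 n := Nat.eq_of_beq_eq_true h2.2
  have h4 := congrArg (fun x : ℕ => (x : ZMod MM)) h3
  simp only [land_cast] at h4
  have h5 := dotN_rel (rel_map (cfl w.1 ++ cfl w.2.1 ++ cfl w.2.2)) (rowN_rel _ _ (rel_map (cfl u)) BzA) 2744212636459181156962698447030388800
  rw [dot_all] at h5
  rw [add_comm]
  exact h5.symm.trans h4

/-- Scanning. -/
def scan (c : List (Nat × Nat × Nat)) : List Nat := Yl.filter fun x => forceN x (condsB c)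

end Cfsg.Agent.Lib.J2Leech
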